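import Cfsg.Agent.H5.Sect3
import Cfsg.Agent.H5.Prin2
import Cfsg.Agent.H5.K9

set_option autoImplicit false
set_option linter.style.haveILetI false
set_option linter.unusedVariables false
set_option linter.unusedSectionVars false
set_option linter.unusedSimpArgs false

/-! Subsection norms. -/

namespace Cfsg.Agent.H5

open Cfsg
open scoped ComplexConjugate

universe u v w

variable {G : Type u} [Group G] [Fintype G] {p : ℕ} {M : Ideal AlgInt}

theorem classInner_xr_inv {x : G} {C : Subgroup G} [Fintype C] (hcomm : ∀ h : C, Commute x (h : G))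
    (χ : IrrCharacter G) (ξ : IrrCharacter C) :
    classInner (xr x⁻¹ (χ : G → ℂ) : C → ℂ) (ξ : C → ℂ) = conj (classInner (xr x (χ : G → ℂ) : C → ℂ) (ξ : C → ℂ)) := by
  classical
  rw [classInner_def, classInner_def, map_mul, map_inv₀, Complex.conj_natCast, map_sum]
  congr 1
  refine Fintype.sum_equiv (Equiv.inv C) _ _ fun c => ?_
  rw [map_mul, Complex.conj_conj, Equiv.inv_apply, IsCharacter.inv_eq_conj (irr_isCharacter ξ)]
  congr 1
  unfold xr
  rw [← IsCharacter.inv_eq_conj (irr_isCharacter χ), mul_inv_rev]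
  rw [Subgroup.coe_inv, inv_inv, (hcomm c).inv_left.eq]

theorem blockPart_bF {C : Type v} [Group C] [Fintype C] (b : Set (IrrCharacter C)) (θ : C → ℂ) (s : C) :
    blockPart b θ s = ∑ ξ ∈ bF b, classInner θ (ξ : C → ℂ) * (ξ : C → ℂ) s := by
  rw [blockPart_apply, sum_ind1_mul]

theorem subsection_norm (hM : IsPModular p M) {x : G} {C : Subgroup G} [Fintype C]
    (hcomm : ∀ h : C, Commute x (h : G)) (χ : IrrCharacter G) {b : Set (IrrCharacter C)} (hb : IsPBlock M b) :
    ∑ᶠ s : C, pRegularPart p (blockPart b (fun c : C => (χ : G → ℂ) (x * c))) s *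
      blockPart b (fun c : C => (χ : G → ℂ) (x⁻¹ * c)) s⁻¹ =
    (Nat.card C : ℂ) * con p x b (χ : G → ℂ) (χ : G → ℂ) := by
  classical
  have hC0 : (Nat.card C : ℂ) ≠ 0 := Nat.cast_ne_zero.mpr Nat.card_pos.ne'
  rw [finsum_eq_sum_of_fintype, con_eq_sum hM hcomm (irr_classFun χ) (irr_classFun χ) hb]
  have h1 : ∀ s : C, blockPart b (fun c : C => (χ : G → ℂ) (x⁻¹ * c)) s⁻¹ =
      ∑ ξ ∈ bF b, conj (classInner (xr x (χ : G → ℂ) : C → ℂ) (ξ : C → ℂ)) * conj ((ξ : C → ℂ) s) := by
    intro s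
    rw [blockPart_bF]
    refine Finset.sum_congr rfl fun ξ _ => ?_
    rw [IsCharacter.inv_eq_conj (irr_isCharacter ξ), ← classInner_xr_inv hcomm]
    rfl
  have h2 : ∀ s : C, pRegularPart p (blockPart b (fun c : C => (χ : G → ℂ) (x * c))) s =
      ∑ η ∈ bF b, classInner (xr x (χ : G → ℂ) : C → ℂ) (η : C → ℂ) * pRegularPart p (η : C → ℂ) s := by
    intro s
    by_cases hs : p ∣ orderOf s
    · rw [pRegularPart_sing hs]
      symm
      exact Finset.sum_eq_zero fun η _ => by rw [pRegularPart_sing hs, mul_zero]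
    · rw [pRegularPart_reg hs, blockPart_bF]
      refine Finset.sum_congr rfl fun η _ => ?_
      rw [pRegularPart_reg hs]
      rfl
  simp only [h1, h2, Finset.sum_mul_sum]
  rw [Finset.sum_comm, Finset.mul_sum]
  refine Finset.sum_congr rfl fun η _ => ?_
  rw [Finset.sum_comm, Finset.mul_sum]
  refine Finset.sum_congr rfl fun ξ _ => ?_
  rw [rin_def]
  have h3 : (Nat.card C : ℂ) * (classInner (xr x (χ : G → ℂ) : C → ℂ) (η : C → ℂ) * conj (classInner (xr x (χ : G → ℂ) : C → ℂ) (ξ : C → ℂ)) *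
      ((Nat.card C : ℂ)⁻¹ * ∑ g : C, pRegularPart p (η : C → ℂ) g * conj ((ξ : C → ℂ) g))) =
      (classInner (xr x (χ : G → ℂ) : C → ℂ) (η : C → ℂ) * conj (classInner (xr x (χ : G → ℂ) : C → ℂ) (ξ : C → ℂ))) *
      ∑ g : C, pRegularPart p (η : C → ℂ) g * conj ((ξ : C → ℂ) g) := by
    field_simp
  rw [h3, Finset.mul_sum]
  refine Finset.sum_congr rfl fun g _ => ?_
  ring

end Cfsg.Agent.H5
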