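import Cfsg.Agent.H5.W13
import Cfsg.Agent.H5.Sect4

set_option autoImplicit false
set_option linter.style.haveILetI false
set_option linter.unusedVariables false
set_option linter.unusedSectionVars false
set_option linter.unusedSimpArgs false

/-! Nonvanishing of generalized decomposition columns. -/

namespace Cfsg.Agent.H5

open Cfsg
open scoped ComplexConjugate

universe u v w

variable {G : Type u} [Group G] [Fintype G] {p : ℕ} {M : Ideal AlgInt}

theorem blockPart_ne (hM : IsPModular p M) {x : G} (hx : ∃ k : ℕ, orderOf x = p ^ k) {C : Subgroup G} [Fintype C]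
    (hxC : x ∈ C) (hcomm : ∀ h : C, Commute x (h : G)) {b : Set (IrrCharacter C)} {B : Set (IrrCharacter G)}
    (hb : IsInducedBlock M C b B) {χ : IrrCharacter G} (hχ : χ ∈ B) (h0 : blockHeight p B (χ : G → ℂ) = 0) :
    ∃ y : C, ¬ p ∣ orderOf y ∧ blockPart b (fun c : C => (χ : G → ℂ) (x * (c : G))) y ≠ 0 := by
  classical
  haveI := isPrime_of_isPModular hM
  by_contra hcon
  push Not at hcon
  have hC0 : (Nat.card C : ℂ) ≠ 0 := Nat.cast_ne_zero.mpr Nat.card_pos.ne'
  have h1 := subsection_norm hM hcomm χ hb.1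
  have h2 : ∑ᶠ s : C, pRegularPart p (blockPart b (fun c : C => (χ : G → ℂ) (x * c))) s *
      blockPart b (fun c : C => (χ : G → ℂ) (x⁻¹ * c)) s⁻¹ = 0 := by
    rw [finsum_eq_sum_of_fintype]
    apply Finset.sum_eq_zero
    intro s _
    by_cases hs : p ∣ orderOf s
    · rw [pRegularPart_sing hs, zero_mul]
    · rw [pRegularPart_reg hs, hcon s hs, zero_mul]
  rw [h2] at h1
  have h3 : con p x b (χ : G → ℂ) (χ : G → ℂ) = 0 := (mul_eq_zero.mp h1.symm).resolve_left hC0
  apply mcon_not_memLocI hM hx hxC hcomm hb hχ hχ h0 h0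
  unfold mcon
  rw [h3, mul_zero]
  exact memLocI_zero

end Cfsg.Agent.H5
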