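import Cfsg.Agent.H5.V3
import Cfsg.Agent.H2.Basic2
import Cfsg.Agent.H2.ActStab
import Cfsg.Agent.H4.ExtApp
import Cfsg.Agent.H4.LinChar
import Cfsg.Agent.L0.Core

set_option autoImplicit false
set_option linter.style.haveILetI false
set_option linter.unusedVariables false
set_option linter.unusedSectionVars false
set_option linter.unusedSimpArgs false

/-! Characters of degree prime to `p` in `p`-solvable groups. -/

namespace Cfsg.Agent.H5

open Cfsg
open scoped ComplexConjugate

universe u v w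

theorem isConj_of_irr {K : Type u} [Group K] [Finite K] {g h : K} (H : ∀ θ : IrrCharacter K, (θ : K → ℂ) g = (θ : K → ℂ) h) :
    IsConj g h := by
  classical
  have h1 := second_orthogonality g h
  have h2 := second_orthogonality g g
  rw [if_pos (IsConj.refl g)] at h2
  by_contra hne
  rw [if_neg hne] at h1
  have h3 : ∑ χ : IrrCharacter K, (χ : K → ℂ) g * conj ((χ : K → ℂ) g) = 0 := by
    rw [← h1]
    exact Finset.sum_congr rfl fun χ _ => by rw [H χ]
  rw [h3] at h2
  exact Nat.cast_ne_zero.mpr Nat.card_pos.ne' h2.symm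

theorem comm_of_linear {P : Type u} [Group P] [Finite P] (h : ∀ χ : IrrCharacter P, (χ : P → ℂ) 1 = 1) (x y : P) : x * y = y * x := by
  have key : IsConj (x * y * x⁻¹ * y⁻¹) 1 := by
    apply isConj_of_irr
    intro θ
    obtain ⟨lam, hlam⟩ := H4.exists_hom_of_degree_one (irr_isCharacter θ) (h θ)
    rw [hlam]
    simp only [map_mul, map_inv, map_one]
    rw [mul_comm (lam x) (lam y), mul_inv_cancel_right, mul_inv_cancel]
  have h2 : x * y * x⁻¹ * y⁻¹ = 1 := by
    rw [_root_.isConj_iff] at key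
    obtain ⟨c, hc⟩ := key
    have h3 : x * y * x⁻¹ * y⁻¹ = c⁻¹ * 1 * c := by rw [← hc]; group
    rw [h3]; group
  have h3 : x * y * x⁻¹ = y := by
    have := congrArg (· * y) h2
    simpa using this
  rwa [mul_inv_eq_iff_eq_mul] at h3

section L

variable {X : Type u} [Group X] [Finite X] {p : ℕ}

theorem centralize_of_classes [hp : Fact p.Prime] {K P : Subgroup X} [hK : K.Normal] (hKp : ¬ p ∣ Nat.card K) (hP : IsPGroup p P)
    (h : ∀ c ∈ K, ∀ y ∈ P, ∃ k ∈ K, y * c * y⁻¹ = k * c * k⁻¹) : ∀ c ∈ K, ∀ y ∈ P, y * c * y⁻¹ = c := by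
  classical
  let C : Subgroup K :=
    { carrier := {k | ∀ y ∈ P, y * (k : X) * y⁻¹ = k}
      one_mem' := by intro y hy; simp
      mul_mem' := by
        intro a b ha hb y hy
        have e : y * ((a * b : K) : X) * y⁻¹ = (y * a * y⁻¹) * (y * b * y⁻¹) := by push_cast; group
        rw [e, ha y hy, hb y hy]; rfl
      inv_mem' := by
        intro a ha y hy
        have e : y * ((a⁻¹ : K) : X) * y⁻¹ = (y * a * y⁻¹)⁻¹ := by push_cast; group
        rw [e, ha y hy]; rfl }
  have hC : C = ⊤ := by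
    apply H2.eq_top_of_forall_conj
    intro c
    -- action of `P` on the class of `c`
    have hclass : ∀ (d : K) (y : P), IsConj c d → IsConj c (⟨(y : X) * d * (y : X)⁻¹, hK.conj_mem d d.2 y⟩ : K) := by
      intro d y hd
      obtain ⟨k, hk, hky⟩ := h d d.2 y y.2
      refine hd.trans ?_
      rw [_root_.isConj_iff]
      exact ⟨⟨k, hk⟩, Subtype.ext hky.symm⟩
    letI : MulAction P {d : K // IsConj c d} :=
      { smul := fun y d => ⟨⟨(y : X) * d.1 * (y : X)⁻¹, hK.conj_mem d.1 d.1.2 y⟩, hclass d.1 y d.2⟩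
        one_smul := by
          intro d
          apply Subtype.ext
          apply Subtype.ext
          show ((1 : P) : X) * (d.1 : X) * ((1 : P) : X)⁻¹ = d.1
          simp
        mul_smul := by
          intro y z d
          apply Subtype.ext
          apply Subtype.ext
          show ((y * z : P) : X) * (d.1 : X) * ((y * z : P) : X)⁻¹ = (y : X) * ((z : X) * (d.1 : X) * (z : X)⁻¹) * (y : X)⁻¹
          push_cast; group }
    have hcard : ¬ p ∣ Nat.card {d : K // IsConj c d} := by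
      rw [card_isConj]
      intro hd
      exact hKp (hd.trans (Subgroup.index_dvd_card _))
    obtain ⟨d, hd⟩ := hP.nonempty_fixed_point_of_prime_not_dvd_card _ hcard
    have hdC : d.1 ∈ C := by
      intro y hy
      have h1 := hd ⟨y, hy⟩
      exact congrArg (fun z : {d : K // IsConj c d} => ((z.1 : K) : X)) h1
    obtain ⟨k, hk⟩ := (_root_.isConj_iff).mp d.2
    refine ⟨k⁻¹, ?_⟩
    rw [inv_inv, hk]
    exact hdC
  intro c hc y hy
  have : (⟨c, hc⟩ : K) ∈ C := by rw [hC]; trivial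
  exact this y hy

end L

variable {X : Type u} [Group X] [Fintype X] {p : ℕ}

/-- One step of the induction. -/
theorem ito_step [hp : Fact p.Prime] (hdeg : ∀ χ : IrrCharacter X, ¬ p ∣ charDegree (χ : X → ℂ)) {K Q : Subgroup X} [hK : K.Normal]
    [hQn : Q.Normal] (hQK : Q ≤ K) (hQ : IsPGroup p Q) (hidx : ¬ p ∣ Q.relIndex K) (hKX : ∃ m : ℕ, K.index = p ^ m) (P : Sylow p X) :
    (P : Subgroup X).Normal := by
  classical
  haveI : Fintype K := Fintype.ofFinite _
  obtain ⟨m, hm⟩ := hKX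
  -- invariance
  have hinv : ∀ θ : IrrCharacter K, ∀ x : X, H4.conjBy hK x (θ : K → ℂ) = θ := by
    intro θ x
    obtain ⟨χ, hχ⟩ := exists_over_irr θ
    have h1 := H4.clifford_degree hK (χ : X → ℂ) χ.2 (θ : K → ℂ) θ.2 hχ
    obtain ⟨n, hn⟩ := H4.inner_nat (irr_isCharacter χ) θ.2
    rw [hn, IsCharacter.one_eq_charDegree (irr_isCharacter χ), IsCharacter.one_eq_charDegree (irr_isCharacter θ)] at h1
    have h2 : charDegree (χ : X → ℂ) = n * (H4.inertia hK (θ : K → ℂ)).index * charDegree (θ : K → ℂ) := by exact_mod_cast h1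
    have h3 : (H4.inertia hK (θ : K → ℂ)).index ∣ p ^ m := by
      rw [← hm]
      exact Subgroup.index_dvd_of_le (H4.le_inertia hK (irr_classFun θ))
    obtain ⟨j, -, hj⟩ := (Nat.dvd_prime_pow hp.out).mp h3
    have h4 : j = 0 := by
      by_contra hj0
      apply hdeg χ
      rw [h2, hj]
      exact Dvd.dvd.mul_right (Dvd.dvd.mul_left (dvd_pow_self p hj0) n) _
    rw [h4, pow_zero, Subgroup.index_eq_one] at hj
    rw [← H4.mem_inertia, hj]
    exact Subgroup.mem_top x
  have hcls : ∀ (k : K) (x : X), ∃ h : K, (x * k * x⁻¹ : X) = h * k * (h : X)⁻¹ := by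
    intro k x
    have h1 : IsConj k (H4.conjAut hK x k) := by
      apply isConj_of_irr
      intro θ
      have := congrFun (hinv θ x) k
      rw [H4.conjBy_apply] at this
      exact this.symm
    rw [_root_.isConj_iff] at h1
    obtain ⟨h, hh⟩ := h1
    refine ⟨h, ?_⟩
    have := congrArg Subtype.val hh
    rw [H4.conjAut_coe] at this
    rw [← this]; rfl
  -- the quotient
  have hQP : Q ≤ (P : Subgroup X) := L0.normal_le_sylow hQ P
  have hKb : ¬ p ∣ Nat.card (K.map (QuotientGroup.mk' Q)) := by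
    have h1 : Nat.card (K.map (QuotientGroup.mk' Q)) = (QuotientGroup.mk' Q).ker.relIndex K := by
      rw [Subgroup.relIndex_ker]
    rw [h1, QuotientGroup.ker_mk']
    exact hidx
  haveI hKbn : (K.map (QuotientGroup.mk' Q)).Normal := hK.map _ (QuotientGroup.mk'_surjective Q)
  have hcent := centralize_of_classes (K := K.map (QuotientGroup.mk' Q)) (P := (P : Subgroup X).map (QuotientGroup.mk' Q)) hKb
    (P.2.map _) (by
      rintro _ ⟨k, hk, rfl⟩ _ ⟨y, hy, rfl⟩
      obtain ⟨h, hh⟩ := hcls ⟨k, hk⟩ y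
      refine ⟨QuotientGroup.mk' Q h, ⟨h, h.2, rfl⟩, ?_⟩
      have := congrArg (QuotientGroup.mk' Q) hh
      simpa using this)
  have hKN : K ≤ Subgroup.normalizer ((P : Subgroup X) : Set X) := by
    have key : ∀ k ∈ K, ∀ y ∈ (P : Subgroup X), k * y * k⁻¹ ∈ (P : Subgroup X) := by
      intro k hk y hy
      have h1 := hcent (QuotientGroup.mk' Q k⁻¹) ⟨k⁻¹, K.inv_mem hk, rfl⟩ (QuotientGroup.mk' Q y) ⟨y, hy, rfl⟩
      have h2 : (QuotientGroup.mk' Q) (k * y * k⁻¹ * y⁻¹) = 1 := by
        have e : k * y * k⁻¹ * y⁻¹ = k * (y * k⁻¹ * y⁻¹) := by group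
        rw [e, map_mul, map_mul, map_mul, map_inv _ y, h1, ← map_mul, mul_inv_cancel, map_one]
      have h3 : k * y * k⁻¹ * y⁻¹ ∈ Q := (QuotientGroup.eq_one_iff _).mp h2
      have h4 := (P : Subgroup X).mul_mem (hQP h3) hy
      rwa [inv_mul_cancel_right] at h4
    intro k hk
    rw [Subgroup.mem_normalizer_iff]
    intro y
    refine ⟨key k hk y, fun h => ?_⟩
    have := key k⁻¹ (K.inv_mem hk) _ h
    have e : k⁻¹ * (k * y * k⁻¹) * k⁻¹⁻¹ = y := by group
    rwa [e] at this
  have hKP : K ⊔ (P : Subgroup X) = ⊤ := by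
    rw [← Subgroup.index_eq_one]
    have h1 : (K ⊔ (P : Subgroup X)).index ∣ p ^ m := by rw [← hm]; exact Subgroup.index_dvd_of_le le_sup_left
    obtain ⟨j, -, hj⟩ := (Nat.dvd_prime_pow hp.out).mp h1
    rcases Nat.eq_zero_or_pos j with h0 | h0
    · rw [hj, h0, pow_zero]
    · exfalso
      have h2 : p ∣ (K ⊔ (P : Subgroup X)).index := hj ▸ dvd_pow_self p h0.ne'
      exact P.not_dvd_index (h2.trans (Subgroup.index_dvd_of_le le_sup_right))
  rw [← Subgroup.normalizer_eq_top_iff, eq_top_iff, ← hKP]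
  exact sup_le hKN Subgroup.le_normalizer

variable {G : Type u} [Group G] [Fintype G]

theorem deg_sub {p : ℕ} (hdeg : ∀ χ : IrrCharacter G, ¬ p ∣ charDegree (χ : G → ℂ)) {N : Subgroup G} (hN : N.Normal)
    (θ : IrrCharacter N) : ¬ p ∣ charDegree (θ : N → ℂ) := by
  haveI : Fintype N := Fintype.ofFinite _
  obtain ⟨χ, hχ⟩ := exists_over_irr θ
  have h1 := H4.clifford_degree hN (χ : G → ℂ) χ.2 (θ : N → ℂ) θ.2 hχ
  obtain ⟨n, hn⟩ := H4.inner_nat (irr_isCharacter χ) θ.2
  rw [hn, IsCharacter.one_eq_charDegree (irr_isCharacter χ), IsCharacter.one_eq_charDegree (irr_isCharacter θ)] at h1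
  have h2 : charDegree (χ : G → ℂ) = n * (H4.inertia hN (θ : N → ℂ)).index * charDegree (θ : N → ℂ) := by exact_mod_cast h1
  intro h3
  apply hdeg χ
  rw [h2]
  exact Dvd.dvd.mul_left h3 _

theorem comm_of_deg {p : ℕ} [hp : Fact p.Prime] {Q : Type u} [Group Q] [Finite Q] (hQ : IsPGroup p Q)
    (hdeg : ∀ χ : IrrCharacter Q, ¬ p ∣ charDegree (χ : Q → ℂ)) (x y : Q) : x * y = y * x := by
  haveI : Fintype Q := Fintype.ofFinite _
  apply comm_of_linear
  intro χ
  obtain ⟨k, hk⟩ := IsPGroup.iff_card.mp hQ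
  have h1 := charDegree_dvd_card χ.2
  rw [hk] at h1
  obtain ⟨j, -, hj⟩ := (Nat.dvd_prime_pow hp.out).mp h1
  rcases Nat.eq_zero_or_pos j with h0 | h0
  · rw [IsCharacter.one_eq_charDegree (irr_isCharacter χ), hj, h0, pow_zero, Nat.cast_one]
  · exact absurd (hj ▸ dvd_pow_self p h0.ne') (hdeg χ)

theorem ito_psolv {p : ℕ} [hp : Fact p.Prime] (hsolv : IsPSolvable p G)
    (hdeg : ∀ χ : IrrCharacter G, ¬ p ∣ charDegree (χ : G → ℂ)) :
    ∃ Q : Subgroup G, Q.Normal ∧ IsPGroup p Q ∧ ¬ p ∣ Q.index ∧ ∀ x ∈ Q, ∀ y ∈ Q, x * y = y * x := by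
  obtain ⟨n, H, h0, hlast, hmono, hnorm, hfac⟩ := hsolv
  have key : ∀ i : Fin (n + 1), ∃ Q : Subgroup G, Q.Normal ∧ Q ≤ H i ∧ IsPGroup p Q ∧ ¬ p ∣ Q.relIndex (H i) := by
    intro i
    induction i using Fin.induction with
    | zero =>
      refine ⟨⊥, inferInstance, bot_le, IsPGroup.of_bot, ?_⟩
      rw [h0, Subgroup.relIndex_self]
      exact fun h => hp.out.one_lt.ne' (Nat.dvd_one.mp h)
    | succ i ih =>
      obtain ⟨Q, hQn, hQK, hQ, hidx⟩ := ih
      have hle : H i.castSucc ≤ H i.succ := hmono (Fin.castSucc_le_succ i)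
      rcases hfac i with ⟨m, hm⟩ | hcop
      · -- `p`-step
        haveI hXn := hnorm i.succ
        haveI hKn := hnorm i.castSucc
        haveI : Fintype (H i.succ) := Fintype.ofFinite _
        haveI hK' : ((H i.castSucc).subgroupOf (H i.succ)).Normal := inferInstance
        haveI hQ' : (Q.subgroupOf (H i.succ)).Normal := inferInstance
        obtain ⟨P⟩ : Nonempty (Sylow p (H i.succ)) := inferInstance
        have hPn : (P : Subgroup (H i.succ)).Normal := by
          apply ito_step (fun χ => deg_sub hdeg hXn χ) (K := (H i.castSucc).subgroupOf (H i.succ)) (Q := Q.subgroupOf (H i.succ))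
          · intro x hx; exact hQK hx
          · exact IsPGroup.comap_subtype hQ
          · rw [Subgroup.relIndex_subgroupOf hle]; exact hidx
          · exact ⟨m, hm⟩
        haveI hchar : (P : Subgroup (H i.succ)).Characteristic := P.characteristic_of_normal hPn
        refine ⟨(P : Subgroup (H i.succ)).map (H i.succ).subtype, ConjAct.normal_of_characteristic_of_normal, ?_, P.2.map _, ?_⟩
        · rintro _ ⟨x, -, rfl⟩; exact x.2
        · have h1 : ((P : Subgroup (H i.succ)).map (H i.succ).subtype).relIndex (H i.succ) = (P : Subgroup (H i.succ)).index := by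
            rw [Subgroup.relIndex]
            congr 1
            exact Subgroup.comap_map_eq_self_of_injective (H i.succ).subtype_injective _
          rw [h1]
          exact P.not_dvd_index
      · refine ⟨Q, hQn, hQK.trans hle, hQ, ?_⟩
        rw [← Subgroup.relIndex_mul_relIndex Q (H i.castSucc) (H i.succ) hQK hle]
        intro hd
        rcases hp.out.dvd_mul.mp hd with h1 | h1
        · exact hidx h1
        · exact (Nat.Prime.coprime_iff_not_dvd hp.out).mp hcop.symm h1
  obtain ⟨Q, hQn, -, hQ, hidx⟩ := key (Fin.last n)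
  rw [hlast, Subgroup.relIndex_top_right] at hidx
  refine ⟨Q, hQn, hQ, hidx, ?_⟩
  intro x hx y hy
  have := comm_of_deg hQ (fun χ => deg_sub hdeg hQn χ) ⟨x, hx⟩ ⟨y, hy⟩
  exact congrArg Subtype.val this

/-- Converse. -/
theorem deg_of_abelian {p : ℕ} [hp : Fact p.Prime] {Q : Subgroup G} (hQn : Q.Normal) (hidx : ¬ p ∣ Q.index)
    (hab : ∀ x ∈ Q, ∀ y ∈ Q, x * y = y * x) (χ : IrrCharacter G) : ¬ p ∣ charDegree (χ : G → ℂ) := by
  classical
  haveI : Fintype Q := Fintype.ofFinite _
  obtain ⟨θ, hθ⟩ := exists_under (N := Q) χ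
  obtain ⟨e, he, hedvd⟩ := H4.ratio_dvd_index hQn (χ : G → ℂ) χ.2 (θ : Q → ℂ) θ.2 hθ
  obtain ⟨lam, hlam⟩ := irr_of_comm (G := Q) (fun a b => Subtype.ext (hab a a.2 b b.2)) θ.2
  have h1 : (θ : Q → ℂ) 1 = 1 := by rw [hlam]; simp
  rw [h1, mul_one, IsCharacter.one_eq_charDegree (irr_isCharacter χ)] at he
  have h2 : charDegree (χ : G → ℂ) = e := by exact_mod_cast he
  rw [h2]
  exact fun h => hidx (h.trans hedvd)

end Cfsg.Agent.H5
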