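import Cfsg.Agent.H5.W22

set_option autoImplicit false
set_option linter.style.haveILetI false
set_option linter.unusedVariables false
set_option linter.unusedSectionVars false
set_option linter.unusedSimpArgs false

/-! Characters of degree prime to `p` in solvable groups. -/

namespace Cfsg.Agent.H5

open Cfsg
open scoped ComplexConjugate

universe u v w

/-- The `p'`-part of a finite commutative group. -/
theorem comm_split {A : Type u} [CommGroup A] [Finite A] (p : ℕ) [hp : Fact p.Prime] :
    ∃ T : Subgroup A, ¬ p ∣ Nat.card T ∧ ∃ m : ℕ, T.index = p ^ m := by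
  let T : Subgroup A :=
    { carrier := {a | (orderOf a).Coprime p}
      one_mem' := by show (orderOf (1 : A)).Coprime p; rw [orderOf_one]; exact Nat.coprime_one_left p
      mul_mem' := by
        intro a b ha hb
        exact Nat.Coprime.coprime_dvd_left ((Commute.all a b).orderOf_mul_dvd_mul_orderOf) (Nat.Coprime.mul_left ha hb)
      inv_mem' := by
        intro a ha
        show (orderOf a⁻¹).Coprime p
        rw [orderOf_inv]; exact ha }
  refine ⟨T, ?_, ?_⟩
  · intro hd
    obtain ⟨x, hx⟩ := exists_prime_orderOf_dvd_card' p hd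
    have h1 : (orderOf (x : A)).Coprime p := x.2
    rw [Subgroup.orderOf_coe, hx, Nat.coprime_self] at h1
    exact hp.out.one_lt.ne' h1
  · have hq : IsPGroup p (A ⧸ T) := by
      intro c
      obtain ⟨a, rfl⟩ := QuotientGroup.mk_surjective c
      obtain ⟨k, m, hm, hnm⟩ := Nat.exists_eq_pow_mul_and_not_dvd (orderOf_pos a).ne' p hp.out.ne_one
      refine ⟨k, ?_⟩
      rw [← QuotientGroup.mk_pow, QuotientGroup.eq_one_iff]
      show (orderOf (a ^ p ^ k)).Coprime p
      have h1 : orderOf (a ^ p ^ k) ∣ m := by
        apply orderOf_dvd_of_pow_eq_one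
        rw [← pow_mul, ← hnm, pow_orderOf_eq_one]
      exact Nat.Coprime.coprime_dvd_left h1 ((Nat.Prime.coprime_iff_not_dvd hp.out).mpr hm).symm
    obtain ⟨m, hm⟩ := IsPGroup.iff_card.mp hq
    exact ⟨m, hm⟩

theorem ito_solv (p : ℕ) [hp : Fact p.Prime] (n : ℕ) : ∀ (G : Type u) [Group G] [Finite G], Nat.card G = n → Group.IsSolvable G →
    (∀ χ : IrrCharacter G, ¬ p ∣ charDegree (χ : G → ℂ)) → ∃ P : Sylow p G, (P : Subgroup G).Normal := by
  induction n using Nat.strong_induction_on with
  | _ n ih =>
  intro G _ _ hn hsol hdeg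
  classical
  haveI : Fintype G := Fintype.ofFinite _
  haveI := hsol
  rcases subsingleton_or_nontrivial G with hs | hnt
  · obtain ⟨P⟩ : Nonempty (Sylow p G) := inferInstance
    refine ⟨P, ?_⟩
    have : (P : Subgroup G) = ⊥ := Subsingleton.elim _ _
    rw [this]; infer_instance
  have hlt : commutator G < ⊤ := Group.IsSolvable.commutator_lt_top_of_nontrivial G
  have hcardlt : Nat.card (commutator G) < n := by
    rw [← hn]
    have h1 := Subgroup.card_mul_index (commutator G)
    have h2 : (commutator G).index ≠ 1 := by rw [Ne, Subgroup.index_eq_one]; exact hlt.ne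
    have h3 : 0 < (commutator G).index := Nat.pos_of_ne_zero Subgroup.index_ne_zero_of_finite
    have h4 : 0 < Nat.card (commutator G) := Nat.card_pos
    nlinarith [Nat.lt_of_le_of_ne h3 h2.symm]
  obtain ⟨Q, hQn⟩ := ih _ hcardlt (commutator G) rfl inferInstance (fun χ => deg_sub hdeg inferInstance χ)
  haveI hchar : (Q : Subgroup (commutator G)).Characteristic := Q.characteristic_of_normal hQn
  haveI hQG : ((Q : Subgroup (commutator G)).map (commutator G).subtype).Normal := ConjAct.normal_of_characteristic_of_normal
  obtain ⟨T, hT, m, hm⟩ := comm_split (A := Abelianization G) p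
  obtain ⟨K, hK⟩ : ∃ K : Subgroup G, K = T.comap Abelianization.of := ⟨_, rfl⟩
  have hab : ∀ g : G, Abelianization.of g = 1 ↔ g ∈ commutator G := by
    intro g; rw [← MonoidHom.mem_ker, Abelianization.ker_of]
  haveI hKn : K.Normal := by
    rw [hK]; exact Subgroup.Normal.comap inferInstance _
  have hsurj : Function.Surjective (Abelianization.of : G →* Abelianization G) := QuotientGroup.mk_surjective
  have hGK : commutator G ≤ K := by
    intro g hg
    rw [hK, Subgroup.mem_comap, (hab g).mpr hg]; exact T.one_mem
  have hKidx : K.index = p ^ m := by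
    rw [hK, Subgroup.index_comap_of_surjective _ hsurj, hm]
  have hrel : ¬ p ∣ ((Q : Subgroup (commutator G)).map (commutator G).subtype).relIndex K := by
    rw [← Subgroup.relIndex_mul_relIndex _ (commutator G) K (by rintro _ ⟨x, -, rfl⟩; exact x.2) hGK]
    intro hd
    rcases hp.out.dvd_mul.mp hd with h1 | h1
    · have h2 : ((Q : Subgroup (commutator G)).map (commutator G).subtype).relIndex (commutator G) = (Q : Subgroup (commutator G)).index := by
        rw [Subgroup.relIndex]
        congr 1
        exact Subgroup.comap_map_eq_self_of_injective (commutator G).subtype_injective _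
      rw [h2] at h1
      exact Q.not_dvd_index h1
    · have h2 : (commutator G).relIndex K = Nat.card T := by
        have h3 : (Abelianization.of : G →* Abelianization G).ker.relIndex K = Nat.card (K.map Abelianization.of) := Subgroup.relIndex_ker _ _
        rw [Abelianization.ker_of] at h3
        rw [h3, hK, Subgroup.map_comap_eq_self_of_surjective hsurj]
      rw [h2] at h1
      exact hT h1
  obtain ⟨P⟩ : Nonempty (Sylow p G) := inferInstance
  exact ⟨P, ito_step hdeg (K := K) (Q := (Q : Subgroup (commutator G)).map (commutator G).subtype)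
    (le_trans (by rintro _ ⟨x, -, rfl⟩; exact x.2) hGK) (Q.2.map _) hrel ⟨m, hKidx⟩ P⟩

end Cfsg.Agent.H5
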