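import Cfsg.Agent.H5.W26
import Cfsg.Agent.H5.Prin2
import Cfsg.Agent.H4.Mult

set_option autoImplicit false
set_option linter.style.haveILetI false
set_option linter.unusedVariables false
set_option linter.unusedSectionVars false
set_option linter.unusedSimpArgs false

/-! Suzuki families of the principal block. -/

namespace Cfsg.Agent.H5

open Cfsg ComplexConjugate

universe u v w

section suz
variable {G : Type u} [Group G] [Fintype G] {p : ℕ} {M : Ideal AlgInt} [hM' : M.IsPrime]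

theorem isPPart_self {x : G} (hp : p.Prime) (hx : ∃ k : ℕ, orderOf x = p ^ k) : IsPPart p x x :=
  ⟨1, mul_one x, Commute.one_right x, hx, by rw [orderOf_one]; exact hp.one_lt.ne' ∘ Nat.dvd_one.mp⟩

theorem isPPart_inv {g x : G} (h : IsPPart p g x) : IsPPart p g⁻¹ x⁻¹ := by
  obtain ⟨y, hxy, hc, ⟨k, hk⟩, hy⟩ := h
  refine ⟨y⁻¹, ?_, hc.inv_inv, ⟨k, by rw [orderOf_inv, hk]⟩, by rwa [orderOf_inv]⟩
  rw [← hxy, hc.eq, mul_inv_rev]

theorem ga_mul_classFun {z w : G → ℂ} (hz : IsClassFunction G z) (hw : IsClassFunction G w) :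
    IsClassFunction G (fun g => (ga z * ga w).coeff g) := by
  intro g h
  show (ga z * ga w).coeff (h * g * h⁻¹) = (ga z * ga w).coeff g
  rw [ga_coeff_mul, ga_coeff_mul, ← Equiv.sum_comp (MulAut.conj h).toEquiv]
  refine Finset.sum_congr rfl fun x _ => ?_
  show z (h * x * h⁻¹) * w ((h * x * h⁻¹)⁻¹ * (h * g * h⁻¹)) = z x * w (x⁻¹ * g)
  rw [hz x h, show (h * x * h⁻¹)⁻¹ * (h * g * h⁻¹) = h * (x⁻¹ * g) * h⁻¹ by group, hw]

theorem mem_pgroup_order [Fact p.Prime] {P : Subgroup G} (hP : IsPGroup p P) {y : G} (hy : y ∈ P) : ∃ k : ℕ, orderOf y = p ^ k := by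
  obtain ⟨k, hk⟩ := (IsPGroup.iff_orderOf (p := p)).mp hP ⟨y, hy⟩
  exact ⟨k, by rw [← hk, ← Subgroup.orderOf_coe]⟩

/-- Vanishing of twisted block sums. -/
theorem blk_twist_zero (hM : IsPModular p M) {B : Set (IrrCharacter G)} (hB : ∀ g, MemLocalRing M (blockCoeff B g))
    {w : G → ℂ} (hw : IsClassFunction G w) {u : G} (hu : ∃ k : ℕ, orderOf u = p ^ k)
    (hvan : ∀ g v : G, IsPPart p g v → IsConj v u → w g = 0) :
    ∑ χ : IrrCharacter G, ind1 B χ * (omega (χ : G → ℂ) w * (χ : G → ℂ) 1 * (χ : G → ℂ) u⁻¹) = 0 := by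
  have h1 : ∀ χ : IrrCharacter G, omega (χ : G → ℂ) w * (χ : G → ℂ) 1 = ∑ g : G, w g * (χ : G → ℂ) g := by
    intro χ
    unfold omega
    rw [div_mul_cancel₀ _ (IsIrr.one_ne_zero χ.2)]
  have h2 : ∑ χ : IrrCharacter G, ind1 B χ * (omega (χ : G → ℂ) w * (χ : G → ℂ) 1 * (χ : G → ℂ) u⁻¹) =
      ∑ g : G, w g * blkK B g u := by
    unfold blkK
    simp only [Finset.mul_sum]
    rw [Finset.sum_comm]
    refine Finset.sum_congr rfl fun χ _ => ?_
    rw [h1, Finset.sum_mul, Finset.mul_sum]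
    refine Finset.sum_congr rfl fun g _ => ?_
    ring
  rw [h2]
  refine Finset.sum_eq_zero fun g _ => ?_
  obtain ⟨v, hv⟩ := exists_pPart hM.1 g
  by_cases h : IsConj v u
  · rw [hvan g v hv h, zero_mul]
  · rw [blkK_section hM hB hv (isPPart_self hM.1 hu) h, mul_zero]

theorem centralChar_ind (χ : IrrCharacter G) (t : G) :
    centralChar (χ : G → ℂ) t = omega (χ : G → ℂ) (cind t) := centralChar_eq_omega (irr_classFun χ) t

/-- The involution formula. -/
theorem blk_involution (hM : IsPModular 2 M) {B : Set (IrrCharacter G)} (hB : ∀ g, MemLocalRing M (blockCoeff B g))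
    {t : G} (ht : orderOf t = 2) {u : G} (hu : ∃ k : ℕ, orderOf u = 2 ^ k)
    (hinv : ∀ g : G, (g * t * g⁻¹) * u * (g * t * g⁻¹)⁻¹ ≠ u⁻¹) :
    ∑ χ ∈ bF B, (χ : G → ℂ) u⁻¹ * ((χ : G → ℂ) t ^ 2 / (χ : G → ℂ) 1) = 0 := by
  classical
  have hz := cind_classFun t
  have hw : IsClassFunction G (fun g => (ga (cind t) * ga (cind t)).coeff g) := ga_mul_classFun hz hz
  have h0 := blk_twist_zero hM hB hw hu (by
    intro g v hv hvu
    show (ga (cind t) * ga (cind t)).coeff g = 0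
    rw [ga_coeff_mul]
    refine Finset.sum_eq_zero fun x _ => ?_
    rw [ga_coeff, ga_coeff]
    by_cases h1 : IsConj t x
    · by_cases h2 : IsConj t (x⁻¹ * g)
      · exfalso
        obtain ⟨a, ha⟩ := _root_.isConj_iff.mp h1
        obtain ⟨b, hb⟩ := _root_.isConj_iff.mp h2
        have htt : t * t = 1 := by rw [← pow_two, ← ht, pow_orderOf_eq_one]
        have hxx : x * x = 1 := by
          rw [← ha]
          have : a * t * a⁻¹ * (a * t * a⁻¹) = a * (t * t) * a⁻¹ := by group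
          rw [this, htt]; group
        have hyy : (x⁻¹ * g) * (x⁻¹ * g) = 1 := by
          rw [← hb]
          have : b * t * b⁻¹ * (b * t * b⁻¹) = b * (t * t) * b⁻¹ := by group
          rw [this, htt]; group
        have hxi : x⁻¹ = x := inv_eq_of_mul_eq_one_left hxx
        have hgi : x * g * x⁻¹ = g⁻¹ := by
          rw [hxi] at hyy
          have h5 : x * g * x * g = 1 := by rw [← hyy]; group
          rw [hxi]
          exact eq_inv_of_mul_eq_one_left h5
        have hv2 := isPPart_conj hv x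
        rw [hgi] at hv2
        have hv3 := pPart_unique hM.1 hv2 (isPPart_inv hv)
        obtain ⟨k, hk⟩ := _root_.isConj_iff.mp hvu
        apply hinv (k * a)
        have e1 : k * a * t * (k * a)⁻¹ = k * x * k⁻¹ := by rw [← ha]; group
        rw [e1, ← hk]
        have e2 : k * x * k⁻¹ * (k * v * k⁻¹) * (k * x * k⁻¹)⁻¹ = k * (x * v * x⁻¹) * k⁻¹ := by group
        rw [e2, hv3]; group
      · rw [cind_neg h2, mul_zero]
    · rw [cind_neg h1, zero_mul])
  have h3 : ∀ χ : IrrCharacter G, omega (χ : G → ℂ) (fun g => (ga (cind t) * ga (cind t)).coeff g) =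
      ((Subgroup.centralizer ({t} : Set G)).index : ℂ) ^ 2 * ((χ : G → ℂ) t ^ 2 / (χ : G → ℂ) 1 ^ 2) := by
    intro χ
    rw [omega_mul χ.2 hz hz, ← centralChar_ind]
    unfold centralChar
    ring
  have hne : ((Subgroup.centralizer ({t} : Set G)).index : ℂ) ^ 2 ≠ 0 := by
    apply pow_ne_zero
    exact_mod_cast Subgroup.index_ne_zero_of_finite
  apply mul_left_cancel₀ hne
  rw [mul_zero, ← h0, ← sum_ind1_mul, Finset.mul_sum]
  refine Finset.sum_congr rfl fun χ _ => ?_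
  rw [h3]
  have hne1 := IsIrr.one_ne_zero χ.2
  field_simp

theorem blkK_conj_right (B : Set (IrrCharacter G)) (x y g : G) : blkK B x (g * y * g⁻¹) = blkK B x y := by
  unfold blkK
  refine Finset.sum_congr rfl fun χ _ => ?_
  have : (g * y * g⁻¹)⁻¹ = g * y⁻¹ * g⁻¹ := by group
  rw [this, irr_classFun χ]

theorem blkK_conj_left (B : Set (IrrCharacter G)) (x y g : G) : blkK B (g * x * g⁻¹) y = blkK B x y := by
  unfold blkK
  refine Finset.sum_congr rfl fun χ _ => ?_
  rw [irr_classFun χ]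

theorem blkK_pelem_zero (hM : IsPModular p M) {B : Set (IrrCharacter G)} (hB : ∀ g, MemLocalRing M (blockCoeff B g))
    {x y : G} (hx : ∃ k : ℕ, orderOf x = p ^ k) (hy : ∃ k : ℕ, orderOf y = p ^ k) (h : ¬ IsConj x y) : blkK B x y = 0 :=
  blkK_section hM hB (isPPart_self hM.1 hx) (isPPart_self hM.1 hy) h

theorem blkK_pelem_self (hM : IsPModular p M) {x : G} (hx : ∃ k : ℕ, orderOf x = p ^ k)
    {C : Subgroup G} (hC : C = Subgroup.centralizer ({x} : Set G)) [Fintype C] :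
    blkK (principalBlock M G) x x = ∑ ψ ∈ bF (principalBlock M C), ((charDegree (ψ : C → ℂ) : ℕ) : ℂ) ^ 2 := by
  have hp1 : ¬ p ∣ orderOf (1 : C) := by rw [orderOf_one]; exact hM.1.one_lt.ne' ∘ Nat.dvd_one.mp
  have h1 := sec_kernel hM (blockCoeff_memLocR (M := M) (principal_isPBlock (G := G))) hx hC hp1 hp1
  rw [locA_principal hM hx hC] at h1
  have h2 : blkK (principalBlock M G) x x = ∑ χ : IrrCharacter G, ind1 (principalBlock M G) χ *
      ((χ : G → ℂ) (x * ((1 : C) : G)) * conj ((χ : G → ℂ) (x * ((1 : C) : G)))) := by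
    unfold blkK
    refine Finset.sum_congr rfl fun χ _ => ?_
    rw [IsCharacter.inv_eq_conj (irr_isCharacter χ)]
    simp
  rw [h2, h1, sum_ind1_mul]
  refine Finset.sum_congr rfl fun ψ _ => ?_
  rw [IsCharacter.one_eq_charDegree (irr_isCharacter ψ), Complex.conj_natCast, sq]

/-- The coefficient of a character against a function on a subgroup. -/
noncomputable def ccf {P : Subgroup G} (θ : P → ℂ) (χ : IrrCharacter G) : ℂ :=
  (Nat.card P : ℂ)⁻¹ * ∑ᶠ y : P, (χ : G → ℂ) (y : G) * θ y⁻¹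

theorem ccf_sum {P : Subgroup G} [Fintype P] (θ : P → ℂ) (S : Finset (IrrCharacter G)) (F : IrrCharacter G → ℂ) :
    ∑ χ ∈ S, ccf θ χ * F χ = (Nat.card P : ℂ)⁻¹ * ∑ y : P, θ y⁻¹ * ∑ χ ∈ S, (χ : G → ℂ) (y : G) * F χ := by
  simp only [ccf, finsum_eq_sum_of_fintype, Finset.mul_sum]
  rw [Finset.sum_comm]
  refine Finset.sum_congr rfl fun χ _ => ?_
  rw [Finset.sum_mul]
  refine Finset.sum_congr rfl fun y _ => ?_
  ring

theorem ccf_sum_zero {P : Subgroup G} [Fintype P] {θ : P → ℂ} {S : Finset (IrrCharacter G)} {F : IrrCharacter G → ℂ}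
    {U : Set G} (hθU : ∀ y : P, (y : G) ∉ U → θ y = 0)
    (h : ∀ y : P, ((y : G))⁻¹ ∈ U → ∑ χ ∈ S, (χ : G → ℂ) (y : G) * F χ = 0) :
    ∑ χ ∈ S, ccf θ χ * F χ = 0 := by
  rw [ccf_sum]
  rw [Finset.sum_eq_zero, mul_zero]
  intro y _
  by_cases hy : ((y : G))⁻¹ ∈ U
  · rw [h y hy, mul_zero]
  · rw [hθU y⁻¹ hy, zero_mul]

theorem card_conj_fiber {N : Subgroup G} (y : G) (x₀ : N) :
    Nat.card {x : N // (x : G) * y * (x : G)⁻¹ = x₀ * y * (x₀ : G)⁻¹} = Nat.card ↥(N ⊓ Subgroup.centralizer ({y} : Set G)) := by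
  apply Nat.card_congr
  refine ⟨fun x => ⟨(x₀ : G)⁻¹ * x.1, ?_, ?_⟩, fun c => ⟨x₀ * ⟨c, c.2.1⟩, ?_⟩, ?_, ?_⟩
  · exact N.mul_mem (N.inv_mem x₀.2) x.1.2
  · show (x₀ : G)⁻¹ * (x.1 : G) ∈ Subgroup.centralizer ({y} : Set G)
    rw [Subgroup.mem_centralizer_singleton_iff]
    have h1 := x.2
    have h2 : (x₀ : G)⁻¹ * (x.1 : G) * y * ((x₀ : G)⁻¹ * (x.1 : G))⁻¹ = y := by
      calc (x₀ : G)⁻¹ * (x.1 : G) * y * ((x₀ : G)⁻¹ * (x.1 : G))⁻¹
          = (x₀ : G)⁻¹ * ((x.1 : G) * y * (x.1 : G)⁻¹) * (x₀ : G) := by group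
        _ = y := by rw [h1]; group
    exact mul_inv_eq_iff_eq_mul.mp h2
  · have h1 := c.2.2
    have h1 : (c : G) * y = y * c := Subgroup.mem_centralizer_singleton_iff.mp h1
    push_cast
    calc (x₀ : G) * (c : G) * y * ((x₀ : G) * (c : G))⁻¹ = x₀ * ((c : G) * y) * (c : G)⁻¹ * (x₀ : G)⁻¹ := by group
      _ = x₀ * y * (x₀ : G)⁻¹ := by rw [h1]; group
  · intro x
    apply Subtype.ext
    apply Subtype.ext
    show (x₀ : G) * ((x₀ : G)⁻¹ * (x.1 : G)) = x.1
    group
  · intro c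
    apply Subtype.ext
    show (x₀ : G)⁻¹ * ((x₀ : G) * (c : G)) = c
    group

theorem suz_inner (hM : IsPModular p M) [Fact p.Prime] {P : Subgroup G} [Fintype P] (hP : IsPGroup p P) {N : Subgroup G}
    [Fintype N] (hPN : P ≤ N) (hNN : N ≤ Subgroup.normalizer (P : Set G)) {U : Set G} (hUP : U ⊆ (P : Set G))
    (hfus : ∀ u ∈ U, ∀ g : G, g * u * g⁻¹ ∈ (P : Set G) → ∃ n ∈ N, n * u * n⁻¹ = g * u * g⁻¹) {w : ℂ}
    (hw : ∀ y ∈ U, blkK (principalBlock M G) y y = w * (Nat.card ↥(N ⊓ Subgroup.centralizer ({y} : Set G)) : ℂ))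
    (θ η : P → ℂ) (hθU : ∀ y : P, (y : G) ∉ U → θ y = 0) :
    ∑ χ ∈ bF (principalBlock M G), ccf θ χ * conj (ccf η χ) =
      (w / ((Nat.card P : ℂ) ^ 2)) * ∑ y : P, θ y * conj (∑ x : N, extendByZero P η ((x : G) * (y : G) * (x : G)⁻¹)) := by
  classical
  have hBR := blockCoeff_memLocR (M := M) (principal_isPBlock (G := G))
  -- the kernel
  have hker : ∀ y : P, (y : G) ∈ U → ∀ y' : P, blkK (principalBlock M G) (y' : G) (y : G) =
      w * ((Finset.univ.filter fun x : N => (y' : G) = x * y * (x : G)⁻¹).card : ℂ) := by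
    intro y hyU y'
    have hyo := mem_pgroup_order hP y.2
    have hyo' := mem_pgroup_order hP y'.2
    by_cases h : IsConj (y : G) (y' : G)
    · obtain ⟨g, hg⟩ := _root_.isConj_iff.mp h
      obtain ⟨n, hn, hng⟩ := hfus y hyU g (by rw [hg]; exact y'.2)
      rw [hg] at hng
      rw [← hng, blkK_conj_left, hw _ hyU]
      congr 2
      rw [← card_conj_fiber (y : G) (⟨n, hn⟩ : N), Nat.card_eq_fintype_card, Fintype.card_subtype]
      congr 1
      ext x
      simp only [Finset.mem_filter, Finset.mem_univ, true_and]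
      exact eq_comm
    · rw [blkK_pelem_zero hM hBR hyo' hyo (fun h' => h h'.symm)]
      have : (Finset.univ.filter fun x : N => (y' : G) = x * y * (x : G)⁻¹) = ∅ := by
        rw [Finset.filter_eq_empty_iff]
        intro x _ hx
        exact h (_root_.isConj_iff.mpr ⟨x, hx.symm⟩)
      rw [this, Finset.card_empty, Nat.cast_zero, mul_zero]
  rw [ccf_sum]
  have h1 : ∀ y : P, ∑ χ ∈ bF (principalBlock M G), (χ : G → ℂ) (y : G) * conj (ccf η χ) =
      (Nat.card P : ℂ)⁻¹ * ∑ y' : P, conj (η y'⁻¹) * blkK (principalBlock M G) (y : G) (y' : G) := by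
    intro y
    simp only [blkK, ccf, finsum_eq_sum_of_fintype, map_mul, map_inv₀, Complex.conj_natCast, map_sum, Finset.mul_sum,
      sum_ind1_mul]
    rw [Finset.sum_comm]
    refine Finset.sum_congr rfl fun y' _ => ?_
    refine Finset.sum_congr rfl fun χ _ => ?_
    rw [IsCharacter.inv_eq_conj (irr_isCharacter χ)]
    ring
  simp only [h1]
  have h2 : ∀ y : P, θ y * conj (∑ x : N, extendByZero P η ((x : G) * (y : G) * (x : G)⁻¹)) * w =
      θ y * ∑ y' : P, conj (η y') * blkK (principalBlock M G) ((y : G)⁻¹) ((y' : G)⁻¹) := by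
    intro y
    by_cases hyU : (y : G) ∈ U
    · rw [mul_assoc]
      congr 1
      have h3 : ∀ x : N, extendByZero P η ((x : G) * (y : G) * (x : G)⁻¹) =
          ∑ y' : P, if (y' : G) = x * y * (x : G)⁻¹ then η y' else 0 := by
        intro x
        have hmem : (x : G) * (y : G) * (x : G)⁻¹ ∈ P := (Subgroup.mem_normalizer_iff.mp (hNN x.2) _).mp y.2
        have h4 : extendByZero P η ((x : G) * (y : G) * (x : G)⁻¹) = η ⟨_, hmem⟩ :=
          Subtype.val_injective.extend_apply η 0 (⟨_, hmem⟩ : P)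
        rw [h4, Finset.sum_eq_single (⟨_, hmem⟩ : P)]
        · rw [if_pos rfl]
        · intro b _ hb
          rw [if_neg]
          intro h
          exact hb (Subtype.ext h)
        · intro h; exact absurd (Finset.mem_univ _) h
      simp only [h3, map_sum]
      rw [Finset.sum_comm, Finset.sum_mul]
      refine Finset.sum_congr rfl fun y' _ => ?_
      have h5 : blkK (principalBlock M G) ((y : G)⁻¹) ((y' : G)⁻¹) = blkK (principalBlock M G) (y' : G) (y : G) := by
        unfold blkK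
        refine Finset.sum_congr rfl fun χ _ => ?_
        rw [inv_inv]; ring
      rw [h5, hker y hyU y']
      have h6 : ∀ x : N, conj (if (y' : G) = x * y * (x : G)⁻¹ then η y' else 0) =
          if (y' : G) = x * y * (x : G)⁻¹ then conj (η y') else 0 := by
        intro x
        split_ifs
        · rfl
        · exact map_zero _
      simp only [h6]
      rw [← Finset.sum_filter, Finset.sum_const, nsmul_eq_mul]
      ring
    · rw [hθU y hyU]; ring
  have h7 : ∑ y : P, θ y⁻¹ * ((Nat.card P : ℂ)⁻¹ * ∑ y' : P, conj (η y'⁻¹) * blkK (principalBlock M G) (y : G) (y' : G)) =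
      (Nat.card P : ℂ)⁻¹ * ∑ y : P, θ y * ∑ y' : P, conj (η y') * blkK (principalBlock M G) ((y : G)⁻¹) ((y' : G)⁻¹) := by
    rw [Finset.mul_sum, ← Equiv.sum_comp (Equiv.inv P)]
    refine Finset.sum_congr rfl fun y _ => ?_
    rw [Equiv.inv_apply, inv_inv, ← Equiv.sum_comp (Equiv.inv P)]
    simp only [Equiv.inv_apply, inv_inv, Subgroup.coe_inv]
    ring
  rw [h7]
  simp only [← h2]
  rw [← Finset.sum_mul]
  ring

end suz

end Cfsg.Agent.H5
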