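import Cfsg.Agent.H5.W27
import Cfsg.Agent.H5.W20

set_option autoImplicit false
set_option linter.style.haveILetI false
set_option linter.unusedVariables false
set_option linter.unusedSectionVars false
set_option linter.unusedSimpArgs false

/-! Brauer-Suzuki type counting with an involution. -/

namespace Cfsg.Agent.H5

open Cfsg ComplexConjugate

universe u v w

theorem suz_comb {ι : Type*} (S : Finset ι) (o : ι) (ho : o ∈ S) (c d s : ι → ℝ) (hd : ∀ i ∈ S, 0 < d i)
    (hso : s o = d o) (hlt : ∀ i ∈ S, i ≠ o → s i < d i) (h1 : ∑ i ∈ S, c i * d i = 0) (h2 : ∑ i ∈ S, c i * s i = 0)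
    (h3 : ∑ i ∈ S, c i * (s i ^ 2 / d i) = 0) (hco : 0 < c o) :
    (∃ i ∈ S, i ≠ o ∧ 0 < c i) ∧ (∃ i ∈ S, ∃ j ∈ S, i ≠ j ∧ c i < 0 ∧ c j < 0) := by
  classical
  have hdo := hd o ho
  have hA : ∑ i ∈ S.erase o, c i * d i = - (c o * d o) := by
    have := Finset.add_sum_erase S (fun i => c i * d i) ho
    linarith
  have hB : ∑ i ∈ S.erase o, c i * (d i - s i) = 0 := by
    have h4 := Finset.add_sum_erase S (fun i => c i * (d i - s i)) ho
    have h5 : ∑ i ∈ S, c i * (d i - s i) = 0 := by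
      simp only [mul_sub, Finset.sum_sub_distrib, h1, h2, sub_zero]
    simp only [hso, sub_self, mul_zero, zero_add] at h4
    rw [h4, h5]
  have hC : ∑ i ∈ S.erase o, c i * ((d i - s i) ^ 2 / d i) = 0 := by
    have h4 := Finset.add_sum_erase S (fun i => c i * ((d i - s i) ^ 2 / d i)) ho
    have h5 : ∑ i ∈ S, c i * ((d i - s i) ^ 2 / d i) = 0 := by
      have h6 : ∀ i ∈ S, c i * ((d i - s i) ^ 2 / d i) = c i * d i - 2 * (c i * s i) + c i * (s i ^ 2 / d i) := by
        intro i hi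
        have := (hd i hi).ne'
        field_simp
        ring
      rw [Finset.sum_congr rfl h6, Finset.sum_add_distrib, Finset.sum_sub_distrib, ← Finset.mul_sum, h1, h2, h3]
      ring
    simp only [hso, sub_self] at h4
    rw [← h5, ← h4]
    simp
  -- a negative one
  obtain ⟨i₀, hi₀, hneg⟩ : ∃ i ∈ S.erase o, c i < 0 := by
    by_contra h
    push Not at h
    have : 0 ≤ ∑ i ∈ S.erase o, c i * d i :=
      Finset.sum_nonneg fun i hi => mul_nonneg (h i hi) (hd i (Finset.mem_of_mem_erase hi)).le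
    rw [hA] at this
    have := mul_pos hco hdo
    linarith
  have hi₀S := Finset.mem_of_mem_erase hi₀
  have hu₀ : 0 < d i₀ - s i₀ := sub_pos.mpr (hlt i₀ hi₀S (Finset.ne_of_mem_erase hi₀))
  constructor
  · by_contra h
    push Not at h
    have h4 : ∑ i ∈ S.erase o, c i * (d i - s i) < 0 := by
      apply Finset.sum_neg' _ ⟨i₀, hi₀, mul_neg_of_neg_of_pos hneg hu₀⟩
      intro i hi
      apply mul_nonpos_of_nonpos_of_nonneg (h i (Finset.mem_of_mem_erase hi) (Finset.ne_of_mem_erase hi))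
      exact (sub_pos.mpr (hlt i (Finset.mem_of_mem_erase hi) (Finset.ne_of_mem_erase hi))).le
    rw [hB] at h4
    exact lt_irrefl _ h4
  · set z := (d i₀ - s i₀) / d i₀ with hz
    have hzpos : 0 < z := div_pos hu₀ (hd i₀ hi₀S)
    have hQ : ∑ i ∈ S.erase o, c i * d i * ((d i - s i) / d i - z) ^ 2 = - (c o * d o) * z ^ 2 := by
      have h6 : ∀ i ∈ S.erase o, c i * d i * ((d i - s i) / d i - z) ^ 2 =
          c i * ((d i - s i) ^ 2 / d i) - 2 * z * (c i * (d i - s i)) + z ^ 2 * (c i * d i) := by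
        intro i hi
        have := (hd i (Finset.mem_of_mem_erase hi)).ne'
        field_simp
        ring
      rw [Finset.sum_congr rfl h6, Finset.sum_add_distrib, Finset.sum_sub_distrib, ← Finset.mul_sum, ← Finset.mul_sum, hA, hB, hC]
      ring
    obtain ⟨j, hj, hjn⟩ : ∃ j ∈ S.erase o, c j * d j * ((d j - s j) / d j - z) ^ 2 < 0 := by
      by_contra h
      push Not at h
      have h5 := Finset.sum_nonneg h
      rw [hQ] at h5
      have h6 := mul_pos (mul_pos hco hdo) (pow_pos hzpos 2)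
      linarith
    have hjS := Finset.mem_of_mem_erase hj
    have hdj := hd j hjS
    have hcj : c j < 0 := by
      by_contra h
      push Not at h
      have := mul_nonneg (mul_nonneg h hdj.le) (sq_nonneg ((d j - s j) / d j - z))
      linarith
    refine ⟨i₀, hi₀S, j, hjS, ?_, hneg, hcj⟩
    rintro rfl
    rw [← hz, sub_self] at hjn
    simp at hjn

section main
variable {G : Type u} [Group G] [Fintype G] {M : Ideal AlgInt} [hM' : M.IsPrime]

theorem two_le_card_sub {S : Finset (IrrCharacter G)} {Q : IrrCharacter G → Prop} {a b : IrrCharacter G} (hab : a ≠ b)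
    (ha : Q a) (hb : Q b) : 2 ≤ Nat.card {χ : IrrCharacter G // Q χ} := by
  have : Nontrivial {χ : IrrCharacter G // Q χ} := ⟨⟨a, ha⟩, ⟨b, hb⟩, fun h => hab (congrArg Subtype.val h)⟩
  exact Finite.one_lt_card_iff_nontrivial.mpr this

theorem ker_ne_top {χ : IrrCharacter G} (hχ : χ ≠ oneC G) : Cfsg.Agent.H4.charKer (irr_isCharacter χ) ≠ ⊤ := by
  intro h
  have h1 := classInner_irr_ne hχ
  rw [classInner_def] at h1
  have h2 : ∀ g : G, (χ : G → ℂ) g = (χ : G → ℂ) 1 := by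
    intro g
    have : g ∈ Cfsg.Agent.H4.charKer (irr_isCharacter χ) := by rw [h]; exact Subgroup.mem_top g
    exact this
  have h3 : ∑ g : G, (χ : G → ℂ) g * conj ((oneC G : G → ℂ) g) = (Nat.card G : ℂ) * (χ : G → ℂ) 1 := by
    rw [Finset.sum_congr rfl (fun g _ => by rw [h2 g, oneC_apply, map_one, mul_one]), Finset.sum_const, Finset.card_univ,
      nsmul_eq_mul, Nat.card_eq_fintype_card]
  rw [h3] at h1
  have h4 : (Nat.card G : ℂ) ≠ 0 := by exact_mod_cast Nat.card_pos.ne'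
  rw [← mul_assoc, inv_mul_cancel₀ h4, one_mul] at h1
  exact IsIrr.one_ne_zero χ.2 h1

theorem suz_main (hM : IsPModular 2 M) {P : Subgroup G} [Fintype P] (hP : IsPGroup 2 P) {U : Set G}
    (hUP : U ⊆ (P : Set G)) {t : G} (ht : orderOf t = 2)
    (hinv : ∀ u ∈ U, ∀ g : G, (g * t * g⁻¹) * u * (g * t * g⁻¹)⁻¹ ≠ u⁻¹) {θ : P → ℂ}
    (hθc : ∀ y : P, θ y⁻¹ = conj (θ y)) (hθU : ∀ y : P, (y : G) ∉ U → θ y = 0) :
    (∑ χ ∈ bF (principalBlock M G), ccf θ χ * ((χ : G → ℂ) t ^ 2 / (χ : G → ℂ) 1) = 0) ∧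
    (∑ χ ∈ bF (principalBlock M G), ccf θ χ * (χ : G → ℂ) 1 = 0) ∧
    (∑ χ ∈ bF (principalBlock M G), ccf θ χ * (χ : G → ℂ) t = 0) ∧
    ((Nat.card P : ℂ)⁻¹ * ∑ᶠ y : P, θ y ≠ 0 →
      (2 ≤ Nat.card {χ : IrrCharacter G // χ ∈ principalBlock M G ∧ 0 < (ccf θ χ).re} ∧
       2 ≤ Nat.card {χ : IrrCharacter G // χ ∈ principalBlock M G ∧ (ccf θ χ).re < 0}) ∨
      ∃ K : Subgroup G, K.Normal ∧ K ≠ ⊤ ∧ pPrimeCore 2 G ≤ K ∧ t ∈ K) := by
  classical
  have hBR := blockCoeff_memLocR (M := M) (principal_isPBlock (G := G))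
  have hto : ∃ k : ℕ, orderOf t = 2 ^ k := ⟨1, by rw [ht, pow_one]⟩
  have hti : t⁻¹ = t := by
    apply inv_eq_of_mul_eq_one_left
    rw [← pow_two, ← ht, pow_orderOf_eq_one]
  haveI : Fact (Nat.Prime 2) := ⟨Nat.prime_two⟩
  have hyo : ∀ y : P, ∃ k : ℕ, orderOf (y : G) = 2 ^ k := fun y => mem_pgroup_order hP y.2
  have hF1 : ∑ χ ∈ bF (principalBlock M G), ccf θ χ * ((χ : G → ℂ) t ^ 2 / (χ : G → ℂ) 1) = 0 := by
    apply ccf_sum_zero hθU
    intro y hy
    have h1 := blk_involution hM hBR ht (u := (y : G)⁻¹) (by rw [orderOf_inv]; exact hyo y) (hinv _ hy)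
    simpa only [inv_inv] using h1
  have hF2 : ∑ χ ∈ bF (principalBlock M G), ccf θ χ * (χ : G → ℂ) 1 = 0 := by
    apply ccf_sum_zero hθU
    intro y hy
    have h1 : ¬ IsConj (y : G) 1 := by
      intro h
      have h2 : (y : G) = 1 := isConj_one_left.mp h
      rw [h2, inv_one] at hy
      apply hinv 1 hy 1
      group
    have h2 := blkK_pelem_zero hM hBR (hyo y) ⟨0, by rw [orderOf_one, pow_zero]⟩ h1
    unfold blkK at h2
    rw [sum_ind1_mul] at h2
    simpa only [inv_one] using h2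
  have hF3 : ∑ χ ∈ bF (principalBlock M G), ccf θ χ * (χ : G → ℂ) t = 0 := by
    apply ccf_sum_zero hθU
    intro y hy
    have h1 : ¬ IsConj (y : G) t := by
      intro h
      obtain ⟨g, hg⟩ := _root_.isConj_iff.mp h.symm
      have hyy : ((y : G))⁻¹ = (y : G) := by
        rw [← hg, mul_inv_rev, mul_inv_rev, inv_inv, hti, mul_assoc]
      apply hinv _ hy g
      rw [hg, inv_inv, mul_assoc]
      have h8 : (y : G) * ((y : G)⁻¹ * (y : G)⁻¹) = (y : G)⁻¹ := by group
      rw [h8, hyy]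
    have h2 := blkK_pelem_zero hM hBR (hyo y) hto h1
    unfold blkK at h2
    rw [sum_ind1_mul, hti] at h2
    exact h2
  refine ⟨hF1, hF2, hF3, ?_⟩
  intro hne
  by_cases hex : ∃ χ ∈ bF (principalBlock M G), χ ≠ oneC G ∧ (χ : G → ℂ) t = (χ : G → ℂ) 1
  · right
    obtain ⟨χ, hχ, hχ1, hχt⟩ := hex
    refine ⟨Cfsg.Agent.H4.charKer (irr_isCharacter χ), inferInstance, ker_ne_top hχ1, ?_, hχt⟩
    intro n hn
    haveI := normal_pPrimeCore 2 G
    have := principal_ker hM (not_dvd_pPrimeCore hM G) (mem_bF.mp hχ) n hn 1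
    rw [mul_one] at this
    exact this
  · left
    push Not at hex
    have htreal : ∀ χ : IrrCharacter G, (((χ : G → ℂ) t).re : ℂ) = (χ : G → ℂ) t := by
      intro χ
      rw [← Complex.conj_eq_iff_re, ← IsCharacter.inv_eq_conj (irr_isCharacter χ), hti]
    have h1real : ∀ χ : IrrCharacter G, (((charDegree (χ : G → ℂ) : ℕ) : ℝ) : ℂ) = (χ : G → ℂ) 1 := by
      intro χ
      rw [IsCharacter.one_eq_charDegree (irr_isCharacter χ)]
      norm_cast
    have hcreal : ∀ χ : IrrCharacter G, ((ccf θ χ).re : ℂ) = ccf θ χ := by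
      intro χ
      rw [← Complex.conj_eq_iff_re]
      unfold ccf
      rw [finsum_eq_sum_of_fintype, map_mul, map_inv₀, Complex.conj_natCast, map_sum]
      congr 1
      rw [← Equiv.sum_comp (Equiv.inv P)]
      refine Finset.sum_congr rfl fun y _ => ?_
      rw [map_mul, Equiv.inv_apply, inv_inv, hθc, ← IsCharacter.inv_eq_conj (irr_isCharacter χ), Subgroup.coe_inv, inv_inv]
    have hR1 : ∑ χ ∈ bF (principalBlock M G), (ccf θ χ).re * ((charDegree (χ : G → ℂ) : ℕ) : ℝ) = 0 := by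
      have h5 : ((∑ χ ∈ bF (principalBlock M G), (ccf θ χ).re * ((charDegree (χ : G → ℂ) : ℕ) : ℝ) : ℝ) : ℂ) = 0 := by
        rw [Complex.ofReal_sum, ← hF2]
        refine Finset.sum_congr rfl fun χ _ => ?_
        rw [Complex.ofReal_mul, hcreal, h1real]
      exact_mod_cast h5
    have hR2 : ∑ χ ∈ bF (principalBlock M G), (ccf θ χ).re * ((χ : G → ℂ) t).re = 0 := by
      have h5 : ((∑ χ ∈ bF (principalBlock M G), (ccf θ χ).re * ((χ : G → ℂ) t).re : ℝ) : ℂ) = 0 := by
        rw [Complex.ofReal_sum, ← hF3]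
        refine Finset.sum_congr rfl fun χ _ => ?_
        rw [Complex.ofReal_mul, hcreal, htreal]
      exact_mod_cast h5
    have hR3 : ∑ χ ∈ bF (principalBlock M G), (ccf θ χ).re * (((χ : G → ℂ) t).re ^ 2 / ((charDegree (χ : G → ℂ) : ℕ) : ℝ)) = 0 := by
      have h5 : ((∑ χ ∈ bF (principalBlock M G), (ccf θ χ).re * (((χ : G → ℂ) t).re ^ 2 / ((charDegree (χ : G → ℂ) : ℕ) : ℝ)) : ℝ) : ℂ) = 0 := by
        rw [Complex.ofReal_sum, ← hF1]
        refine Finset.sum_congr rfl fun χ _ => ?_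
        rw [Complex.ofReal_mul, Complex.ofReal_div, Complex.ofReal_pow, hcreal, htreal, h1real]
      exact_mod_cast h5
    have hd : ∀ χ ∈ bF (principalBlock M G), (0 : ℝ) < ((charDegree (χ : G → ℂ) : ℕ) : ℝ) := by
      intro χ _
      exact_mod_cast charDegree_pos χ.2
    have ho : oneC G ∈ bF (principalBlock M G) := mem_bF.mpr (oneC_mem hM)
    have hso : ((oneC G : G → ℂ) t).re = ((charDegree (oneC G : G → ℂ) : ℕ) : ℝ) := by
      have h5 : (((charDegree (oneC G : G → ℂ) : ℕ) : ℝ) : ℂ) = 1 := by rw [h1real, oneC_apply]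
      have h6 : ((charDegree (oneC G : G → ℂ) : ℕ) : ℝ) = 1 := by exact_mod_cast h5
      rw [h6, oneC_apply, Complex.one_re]
    have hlt : ∀ χ ∈ bF (principalBlock M G), χ ≠ oneC G → ((χ : G → ℂ) t).re < ((charDegree (χ : G → ℂ) : ℕ) : ℝ) := by
      intro χ hχ hχ1
      have h5 := Cfsg.Agent.H4.IsChar.norm_le (irr_isCharacter χ) t
      rw [← htreal, ← h1real] at h5
      rw [Complex.norm_real, Complex.norm_real, Real.norm_eq_abs, Real.norm_eq_abs, abs_of_pos (hd χ hχ)] at h5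
      apply lt_of_le_of_ne (le_trans (le_abs_self _) h5)
      intro h6
      apply hex χ hχ hχ1
      rw [← htreal, h6, h1real]
    have hco : (ccf θ (oneC G)).re ≠ 0 := by
      intro h0
      apply hne
      have h7 := hcreal (oneC G)
      rw [h0, Complex.ofReal_zero] at h7
      unfold ccf at h7
      rw [h7]
      congr 1
      rw [finsum_eq_sum_of_fintype, finsum_eq_sum_of_fintype, ← Equiv.sum_comp (Equiv.inv P)]
      refine Finset.sum_congr rfl fun y _ => ?_
      rw [oneC_apply, one_mul, Equiv.inv_apply]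
    rcases lt_or_gt_of_ne hco with hco | hco
    · have h8 := suz_comb (bF (principalBlock M G)) (oneC G) ho (fun χ => - (ccf θ χ).re) (fun χ => ((charDegree (χ : G → ℂ) : ℕ) : ℝ))
        (fun χ => ((χ : G → ℂ) t).re) hd hso hlt (by simp only [neg_mul, Finset.sum_neg_distrib, hR1, neg_zero])
        (by simp only [neg_mul, Finset.sum_neg_distrib, hR2, neg_zero]) (by simp only [neg_mul, Finset.sum_neg_distrib, hR3, neg_zero])
        (by simpa using hco)
      obtain ⟨⟨i, hi, hio, hic⟩, ⟨j, hj, k, hk, hjk, hjc, hkc⟩⟩ := h8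
      constructor
      · exact two_le_card_sub (S := ∅) hjk ⟨mem_bF.mp hj, by linarith⟩ ⟨mem_bF.mp hk, by linarith⟩
      · exact two_le_card_sub (S := ∅) hio ⟨mem_bF.mp hi, by linarith⟩ ⟨mem_bF.mp ho, hco⟩
    · have h8 := suz_comb (bF (principalBlock M G)) (oneC G) ho (fun χ => (ccf θ χ).re) (fun χ => ((charDegree (χ : G → ℂ) : ℕ) : ℝ))
        (fun χ => ((χ : G → ℂ) t).re) hd hso hlt hR1 hR2 hR3 hco
      obtain ⟨⟨i, hi, hio, hic⟩, ⟨j, hj, k, hk, hjk, hjc, hkc⟩⟩ := h8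
      constructor
      · exact two_le_card_sub (S := ∅) hio ⟨mem_bF.mp hi, hic⟩ ⟨mem_bF.mp ho, hco⟩
      · exact two_le_card_sub (S := ∅) hjk ⟨mem_bF.mp hj, hjc⟩ ⟨mem_bF.mp hk, hkc⟩

end main

end Cfsg.Agent.H5
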