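import Cfsg.Agent.H5.W22
import Cfsg.Agent.H5.Sect3
import Cfsg.Agent.H5.Block11

set_option autoImplicit false
set_option linter.style.haveILetI false
set_option linter.unusedVariables false
set_option linter.unusedSectionVars false
set_option linter.unusedSimpArgs false

/-! Height zero characters have linear constituents on the defect group. -/

namespace Cfsg.Agent.H5

open Cfsg
open scoped ComplexConjugate

universe u v w

variable {G : Type u} [Group G] [Fintype G] {p : ℕ} {M : Ideal AlgInt}

theorem linear_under (hM : IsPModular p M) {B : Set (IrrCharacter G)} (hB : IsPBlock M B) {D : Subgroup G} (hD : IsDefectGroup p M B D)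
    [Fintype D] {χ : IrrCharacter G} (hχ : χ ∈ B) (h0 : blockHeight p B (χ : G → ℂ) = 0) :
    ∃ μ : IrrCharacter D, classInner (fun d : D => (χ : G → ℂ) d) (μ : D → ℂ) ≠ 0 ∧ (μ : D → ℂ) 1 = 1 := by
  classical
  have hprime := isPrime_of_isPModular hM
  have hfact : Fact p.Prime := ⟨hM.1⟩
  obtain ⟨y, hy, hyD⟩ := (isDefectGroup_iff B D).mp hD
  have hval := value_not_memLocI hM hB hy hχ h0
  obtain ⟨C, hC⟩ : ∃ C : Subgroup G, C = D ⊔ Subgroup.zpowers y := ⟨_, rfl⟩
  have hDC : D ≤ C := by rw [hC]; exact le_sup_left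
  have hyC : y ∈ C := by rw [hC]; exact (le_sup_right : Subgroup.zpowers y ≤ _) (Subgroup.mem_zpowers y)
  have hCy : C ≤ Subgroup.centralizer ({y} : Set G) := by
    rw [hC]
    refine sup_le hyD.le ?_
    rw [Subgroup.zpowers_le, Subgroup.mem_centralizer_singleton_iff]
  have hyc : ∀ h : C, Commute (⟨y, hyC⟩ : C) h := by
    intro h
    have := hCy h.2
    rw [Subgroup.mem_centralizer_singleton_iff] at this
    exact Subtype.ext this.symm
  have hfC : Fintype C := Fintype.ofFinite C
  have hchar := isCharacter_restrict C (irr_isCharacter χ)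
  have hexp := classFun_expansion_apply (IsCharacter.classFun hchar) (⟨y, hyC⟩ : C)
  simp only at hexp
  -- some constituent of p'-degree
  have h1 : ∃ η : IrrCharacter C, classInner (fun c : C => (χ : G → ℂ) c) (η : C → ℂ) ≠ 0 ∧ ¬ p ∣ charDegree (η : C → ℂ) := by
    by_contra hcon
    push Not at hcon
    apply hval
    rw [hexp]
    refine memLocI_sum _ _ fun η _ => ?_
    by_cases hm : classInner (fun c : C => (χ : G → ℂ) c) (η : C → ℂ) = 0
    · rw [hm, zero_mul]; exact memLocI_zero
    · obtain ⟨k, hk⟩ := hcon η hm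
      obtain ⟨m, hmm⟩ := IsCharacter.inner_nat hchar η
      have h2 := central_mul hyc η 1
      rw [mul_one] at h2
      have h3 : (η : C → ℂ) 1 = (p : ℂ) * (k : ℂ) := by
        rw [IsCharacter.one_eq_charDegree (irr_isCharacter η), hk]; push_cast; rfl
      rw [hmm, h2, h3]
      refine memLocI_mul_left (memLocR_natCast _) (memLocI_mul_left (memLocR_of_isIntegral hprime.ne_top ?_) (memLocI_mul_right (memLocI_p hM) (memLocR_natCast _)))
      have := cv_integral hyc η
      unfold cv at this
      rw [h3] at this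
      exact this
  obtain ⟨η, hη, hηp⟩ := h1
  have hchD : IsCharacter D (fun d : D => (η : C → ℂ) (Subgroup.inclusion hDC d)) := by
    exact isCharacter_comp (Subgroup.inclusion hDC) (irr_isCharacter η)
  have hexpD := classFun_expansion_apply (IsCharacter.classFun hchD) (1 : D)
  have h2 : ∃ μ : IrrCharacter D, classInner (fun d : D => (η : C → ℂ) (Subgroup.inclusion hDC d)) (μ : D → ℂ) ≠ 0 ∧ ¬ p ∣ charDegree (μ : D → ℂ) := by
    by_contra hcon
    push Not at hcon
    apply hηp
    rw [← memLocI_natCast_iff hM, ← IsCharacter.one_eq_charDegree (irr_isCharacter η)]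
    simp only [map_one] at hexpD
    rw [hexpD]
    refine memLocI_sum _ _ fun μ _ => ?_
    by_cases hm : classInner (fun d : D => (η : C → ℂ) (Subgroup.inclusion hDC d)) (μ : D → ℂ) = 0
    · rw [hm, zero_mul]; exact memLocI_zero
    · obtain ⟨k, hk⟩ := hcon μ hm
      obtain ⟨m, hmm⟩ := IsCharacter.inner_nat hchD μ
      rw [hmm, IsCharacter.one_eq_charDegree (irr_isCharacter μ), hk]
      push_cast
      exact memLocI_mul_left (memLocR_natCast _) (memLocI_mul_right (memLocI_p hM) (memLocR_natCast _))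
  obtain ⟨μ, hμ, hμp⟩ := h2
  refine ⟨μ, ?_, ?_⟩
  · -- expansion of χ on D through C
    obtain ⟨m1, hm1⟩ := IsCharacter.inner_nat hchD μ
    have hexp2 : (fun d : D => (χ : G → ℂ) d) = fun d : D => ∑ ξ : IrrCharacter C, classInner (fun c : C => (χ : G → ℂ) c) (ξ : C → ℂ) * (ξ : C → ℂ) (Subgroup.inclusion hDC d) := by
      funext d
      exact classFun_expansion_apply (IsCharacter.classFun hchar) (Subgroup.inclusion hDC d)
    have h3 : classInner (fun d : D => (χ : G → ℂ) d) (μ : D → ℂ) = ∑ ξ : IrrCharacter C, classInner (fun c : C => (χ : G → ℂ) c) (ξ : C → ℂ) *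
        classInner (fun d : D => (ξ : C → ℂ) (Subgroup.inclusion hDC d)) (μ : D → ℂ) := by
      rw [hexp2, classInner]
      simp only [Finset.sum_mul, mul_assoc]
      rw [Finset.sum_comm, Finset.mul_sum]
      refine Finset.sum_congr rfl fun ξ _ => ?_
      rw [← Finset.mul_sum, classInner.eq_def (fun d : D => (ξ : C → ℂ) (Subgroup.inclusion hDC d))]
      ring
    have h4 : ∀ ξ : IrrCharacter C, ∃ n : ℕ, classInner (fun c : C => (χ : G → ℂ) c) (ξ : C → ℂ) *
        classInner (fun d : D => (ξ : C → ℂ) (Subgroup.inclusion hDC d)) (μ : D → ℂ) = n := by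
      intro ξ
      obtain ⟨a, ha⟩ := IsCharacter.inner_nat hchar ξ
      obtain ⟨b, hb⟩ := IsCharacter.inner_nat (χ := fun d : D => (ξ : C → ℂ) (Subgroup.inclusion hDC d)) (isCharacter_comp (Subgroup.inclusion hDC) (irr_isCharacter ξ)) μ
      exact ⟨a * b, by rw [ha, hb]; push_cast; ring⟩
    choose n hn using h4
    rw [h3, Finset.sum_congr rfl (fun ξ _ => hn ξ), ← Nat.cast_sum]
    rw [Nat.cast_ne_zero]
    intro h5
    rw [Finset.sum_eq_zero_iff] at h5
    have h6 := h5 η (Finset.mem_univ _)
    have h7 := hn η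
    rw [h6, Nat.cast_zero] at h7
    exact mul_ne_zero hη hμ h7
  · have h3 := charDegree_dvd_card μ.2
    obtain ⟨n, hn⟩ := hyD.isPGroup.exists_card_eq
    rw [hn, Nat.dvd_prime_pow hM.1] at h3
    obtain ⟨k, hk, hk'⟩ := h3
    have : k = 0 := by
      by_contra hk0
      exact hμp (hk' ▸ dvd_pow_self p hk0)
    rw [IsCharacter.one_eq_charDegree (irr_isCharacter μ), hk', this, pow_zero, Nat.cast_one]

end Cfsg.Agent.H5
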