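import Cfsg.Agent.H5.W32

set_option autoImplicit false
set_option linter.style.haveILetI false
set_option linter.unusedVariables false
set_option linter.unusedSectionVars false
set_option linter.unusedSimpArgs false

/-! Klein four defect groups: the number of Brauer characters. -/

namespace Cfsg.Agent.H5

open Cfsg
open scoped ComplexConjugate

universe u v w

section

variable {G : Type u} [Group G] [Fintype G] {M : Ideal AlgInt} [hM' : M.IsPrime]

theorem klein_ab {P : Subgroup G} (hexp : ∀ x ∈ P, x * x = 1) : P ≤ Subgroup.centralizer (P : Set G) := by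
  intro x hx
  rw [Subgroup.mem_centralizer_iff]
  intro y hy
  have h1 := hexp x hx
  have h2 := hexp y hy
  have h3 := hexp (y * x) (P.mul_mem hy hx)
  calc y * x = y * x * (y * x * (y * x)) := by rw [h3, mul_one]
    _ = y * ((x * (y * x * y))) * x := by group
    _ = x * y := by
      have e1 : x * (y * x * y) = (x * x) * (x⁻¹ * (y * x * y)) := by group
      have e2 : y * x * y = x⁻¹ := by
        have : (y * x * y) * x = 1 := by rw [← h3]; group
        exact eq_inv_of_mul_eq_one_left this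
      have e3 : x⁻¹ = x := inv_eq_of_mul_eq_one_left h1
      rw [e2, mul_inv_cancel, mul_one]
      have e4 : (y * x) * (y * x) = 1 := h3
      have e5 : (y * x)⁻¹ = y * x := inv_eq_of_mul_eq_one_left e4
      rw [← e5, mul_inv_rev, e3, inv_eq_of_mul_eq_one_left h2]

theorem two_ord {x : G} (h : x * x = 1) : ∃ k : ℕ, orderOf x = 2 ^ k := by
  have h1 : orderOf x ∣ 2 := orderOf_dvd_of_pow_eq_one (by rw [pow_two, h])
  rcases (Nat.dvd_prime Nat.prime_two).mp h1 with h2 | h2
  · exact ⟨0, by rw [h2]; rfl⟩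
  · exact ⟨1, by rw [h2]; rfl⟩

/-- Trivial inertial quotient: one Brauer character. -/
theorem klein_nil (hM : IsPModular 2 M) {B : Set (IrrCharacter G)} (hB : IsPBlock M B) {P : Subgroup G} {e : MonoidAlgebra (KK M) G}
    (hmax : MaxP 2 M (blk M B) (P, e)) (hc : Nat.card P = 4) (hexp : ∀ x ∈ P, x * x = 1)
    (hT : stb P e ≤ Subgroup.centralizer (P : Set G)) : blockRank 2 B = 1 := by
  classical
  have hab := klein_ab hexp
  have hb := isBl_top (M := M) hB
  have hP := hmax.1.1
  have he := hmax.1.2.1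
  simp only at hP he
  have hD : IsDefectGroup 2 M B P := (isDefectGroup_iff_df hM hB).mpr (hmax.df hM hb)
  have hk := klein_card hM hB hD hc
  obtain ⟨X, -, hX, hXrep⟩ := exists_rep_set 2 (1 : G) ⟨0, by rw [orderOf_one, pow_zero]⟩
  have hsum := k_eq hM hB X hX hXrep
  rw [hk] at hsum
  have hpos := blockRank_pos hM hB
  -- the map
  have hmap : ∀ u : {u : G // u ∈ P ∧ u ≠ 1}, ∃ s : (Σ x : G, Set (IrrCharacter (Subgroup.centralizer ({x} : Set G)))),
      s.1 ∈ X ∧ s.1 ≠ 1 ∧ IsInducedBlock M (Subgroup.centralizer ({s.1} : Set G)) s.2 B ∧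
      ∃ (g : G) (f : MonoidAlgebra (KK M) G), g * u * g⁻¹ = s.1 ∧ LEr 2 M (Subgroup.zpowers (u : G), f) (P, e) ∧
        be M (Subgroup.centralizer ({s.1} : Set G)) s.2 = kconj g f := by
    rintro ⟨u, hu, hu1⟩
    have huo := two_ord (hexp u hu)
    obtain ⟨x, ⟨hxX, hux⟩, -⟩ := hXrep u huo
    obtain ⟨g, hg⟩ := _root_.isConj_iff.mp hux
    obtain ⟨f, hf, hle⟩ := exists_sub hM hP he hu
    have hcj : cj g (Subgroup.zpowers u) = Subgroup.zpowers x := by rw [cj_zpowers, hg]
    have hbl : IsBl M (Subgroup.centralizer ({x} : Set G)) (kconj g f) := by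
      have := isBl_cj_centralizer hf g
      rwa [hcj, zc] at this
    obtain ⟨b, hbb, hbe⟩ := exists_be hbl
    refine ⟨⟨x, b⟩, hxX, ?_, ?_, g, f, hg, hle, hbe⟩
    · rintro rfl
      apply hu1
      have : u = g⁻¹ * (g * u * g⁻¹) * g := by group
      rw [this, hg]; group
    · rw [induced_iff_bp hM hB (hX x hxX) hbb, hbe]
      have h1 : BP 2 M (blk M B) (Subgroup.zpowers u, f) := BP.of_le hM hb hle hmax.1
      have h2 := BP.cj hb.fix h1 g
      rw [← hcj]
      exact h2
  choose s hsX hs1 hsind g f hg hle hbe using hmap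
  have hinj : Function.Injective s := by
    intro u v huv
    have h1 : g u * u * (g u)⁻¹ = g v * v * (g v)⁻¹ := by rw [hg, hg, huv]
    have h2 : kconj (g u) (f u) = kconj (g v) (f v) := by
      rw [← hbe, ← hbe, huv]
    have h3 : cjp ((g v)⁻¹ * g u) (Subgroup.zpowers (u : G), f u) = (Subgroup.zpowers (v : G), f v) := by
      rw [← cjp_cjp]
      have h4 : cjp (g u) (Subgroup.zpowers (u : G), f u) = cjp (g v) (Subgroup.zpowers (v : G), f v) := by
        unfold cjp
        simp only
        rw [cj_zpowers, cj_zpowers, h1, h2]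
      rw [h4, cjp_cjp, inv_mul_cancel]
      unfold cjp
      rw [cj_one]
      simp only
      rw [kconj_by_one]
    have h5 : LEr 2 M (cjp ((g v)⁻¹ * g u) (Subgroup.zpowers (u : G), f u)) (P, e) := by
      rw [h3]; exact hle v
    obtain ⟨y, hy, c, hcc, hyc⟩ := abelian_control' hM hb hmax hab (hle u) h5
    have hyP := hT hy
    rw [Subgroup.mem_centralizer_iff] at hyP
    have e1 := hyP u u.2.1
    have e2 : c * u = u * c := by
      rw [zc, Subgroup.mem_centralizer_singleton_iff] at hcc
      exact hcc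
    apply Subtype.ext
    have e3 : (v : G) = ((g v)⁻¹ * g u) * u * ((g v)⁻¹ * g u)⁻¹ := by
      have : (v : G) = (g v)⁻¹ * (g v * v * (g v)⁻¹) * g v := by group
      rw [this, ← h1]; group
    rw [e3, hyc]
    calc (u : G) = y * (c * u * c⁻¹) * y⁻¹ := by rw [e2, mul_inv_cancel_right, ← e1, mul_inv_cancel_right]
      _ = y * c * u * (y * c)⁻¹ := by group
  -- counting
  have hcard3 : Nat.card {u : G // u ∈ P ∧ u ≠ 1} = 3 := by
    have h1 : Nat.card {u : G // u ∈ P ∧ u ≠ 1} = Nat.card {u : P // u ≠ 1} := by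
      apply Nat.card_congr
      refine ⟨fun u => ⟨⟨u.1, u.2.1⟩, fun h => u.2.2 (congrArg Subtype.val h)⟩, fun u => ⟨u.1.1, u.1.2, fun h => u.2 (Subtype.ext h)⟩, fun _ => rfl, fun _ => rfl⟩
    rw [h1]
    have h2 : Nat.card {u : P // u ≠ 1} = Nat.card P - 1 := by
      have : Fintype P := Fintype.ofFinite P
      rw [Nat.card_eq_fintype_card, Nat.card_eq_fintype_card, Fintype.card_subtype_compl, Fintype.card_subtype_eq]
    rw [h2, hc]
  let S : Finset (Σ x : G, Set (IrrCharacter (Subgroup.centralizer ({x} : Set G)))) :=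
    (X.erase 1).sigma (fun x => (Set.toFinite {b : Set (IrrCharacter (Subgroup.centralizer ({x} : Set G))) |
      IsInducedBlock M (Subgroup.centralizer ({x} : Set G)) b B}).toFinset)
  have hS : ∀ u, s u ∈ S := by
    intro u
    rw [Finset.mem_sigma, Finset.mem_erase, Set.Finite.mem_toFinset]
    exact ⟨⟨hs1 u, hsX u⟩, hsind u⟩
  have hS3 : 3 ≤ S.card := by
    have h1 : Nat.card {u : G // u ∈ P ∧ u ≠ 1} ≤ Nat.card S :=
      Nat.card_le_card_of_injective (fun u => (⟨s u, hS u⟩ : S)) (fun u v h => hinj (congrArg Subtype.val h))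
    rw [hcard3, Nat.card_eq_fintype_card, Fintype.card_coe] at h1
    exact h1
  have hSle : S.card ≤ ∑ x ∈ X.erase 1, ∑ b ∈ (Set.toFinite {b : Set (IrrCharacter (Subgroup.centralizer ({x} : Set G))) |
      IsInducedBlock M (Subgroup.centralizer ({x} : Set G)) b B}).toFinset, blockRank 2 b := by
    rw [Finset.card_sigma]
    refine Finset.sum_le_sum fun x hx => ?_
    rw [Finset.card_eq_sum_ones]
    refine Finset.sum_le_sum fun b hb => ?_
    rw [Set.Finite.mem_toFinset] at hb
    exact blockRank_pos hM hb.1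
  omega


/-- Transitive inertial quotient: three Brauer characters. -/
theorem klein_trans (hM : IsPModular 2 M) {B : Set (IrrCharacter G)} (hB : IsPBlock M B) {P : Subgroup G} {e : MonoidAlgebra (KK M) G}
    (hmax : MaxP 2 M (blk M B) (P, e)) (hc : Nat.card P = 4) (hexp : ∀ x ∈ P, x * x = 1)
    (hT1 : ∀ t ∈ stb P e, ∀ u ∈ P, u ≠ 1 → t * u * t⁻¹ = u → t ∈ Subgroup.centralizer (P : Set G))
    (hT2 : ∀ u ∈ P, u ≠ 1 → ∀ v ∈ P, v ≠ 1 → ∃ t ∈ stb P e, t * u * t⁻¹ = v) : blockRank 2 B = 3 := by
  classical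
  have hab := klein_ab hexp
  have hb := isBl_top (M := M) hB
  have hP := hmax.1.1
  have he := hmax.1.2.1
  simp only at hP he
  have hD : IsDefectGroup 2 M B P := (isDefectGroup_iff_df hM hB).mpr (hmax.df hM hb)
  have hk := klein_card hM hB hD hc
  obtain ⟨u₀, hu₀, hu₀1⟩ : ∃ u ∈ P, u ≠ 1 := by
    by_contra hcon
    push Not at hcon
    have : P = ⊥ := by
      rw [eq_bot_iff]; intro x hx; rw [Subgroup.mem_bot]; exact hcon x hx
    rw [this, Subgroup.card_bot] at hc
    omega
  have hu₀o := two_ord (hexp u₀ hu₀)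
  obtain ⟨X, hu₀X, hX, hXrep⟩ := exists_rep_set 2 u₀ hu₀o
  have hsum := k_eq hM hB X hX hXrep
  rw [hk] at hsum
  obtain ⟨f, hf, hle⟩ := exists_sub hM hP he hu₀
  obtain ⟨hf', hBPf, hdff⟩ := ab_df hM hb hmax hab hle
  have hfH : IsBl M (Subgroup.centralizer ({u₀} : Set G)) f := by rw [← zc]; exact hf
  obtain ⟨b₀, hb₀, hbe₀⟩ := exists_be hfH
  have hind₀ : IsInducedBlock M (Subgroup.centralizer ({u₀} : Set G)) b₀ B := by
    rw [induced_iff_bp hM hB hu₀o hb₀, hbe₀]
    exact BP.of_le hM hb hle hmax.1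
  -- only one class
  have hone : ∀ x ∈ X.erase 1, ∀ b : Set (IrrCharacter (Subgroup.centralizer ({x} : Set G))),
      IsInducedBlock M (Subgroup.centralizer ({x} : Set G)) b B → x = u₀ ∧ be M (Subgroup.centralizer ({x} : Set G)) b = f := by
    intro x hx b hbind
    rw [Finset.mem_erase] at hx
    have hxo := hX x hx.2
    have hBP := (induced_iff_bp hM hB hxo hbind.1).mp hbind
    obtain ⟨g, hg⟩ := hmax.exists_conj hM hb hBP
    have hgx : g * x * g⁻¹ ∈ P := by
      have h1 : cj g (Subgroup.zpowers x) ≤ P := LEr.le hg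
      rw [cj_zpowers, Subgroup.zpowers_le] at h1
      exact h1
    have hgx1 : g * x * g⁻¹ ≠ 1 := by
      intro h
      apply hx.1
      have : x = g⁻¹ * (g * x * g⁻¹) * g := by group
      rw [this, h]; group
    obtain ⟨t, ht, htu⟩ := hT2 _ hgx hgx1 u₀ hu₀ hu₀1
    have hxu : x = u₀ := by
      obtain ⟨z, -, hz⟩ := hXrep u₀ hu₀o
      rw [hz x ⟨hx.2, (_root_.isConj_iff.mpr ⟨t * g, by rw [← htu]; group⟩ : IsConj x u₀).symm⟩, hz u₀ ⟨hu₀X, IsConj.refl _⟩]
    refine ⟨hxu, ?_⟩
    have h1 := LEr.cj hg t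
    rw [mem_stb_iff_cjp.mp ht, cjp_cjp] at h1
    have hk0 : t * g ∈ Subgroup.centralizer ({x} : Set G) := by
      rw [Subgroup.mem_centralizer_singleton_iff]
      have h2 : t * g * x * (t * g)⁻¹ = x := by
        calc t * g * x * (t * g)⁻¹ = t * (g * x * g⁻¹) * t⁻¹ := by group
          _ = u₀ := htu
          _ = x := hxu.symm
      rwa [mul_inv_eq_iff_eq_mul] at h2
    have h2 : cjp (t * g) (Subgroup.zpowers x, be M (Subgroup.centralizer ({x} : Set G)) b) = (Subgroup.zpowers x, be M (Subgroup.centralizer ({x} : Set G)) b) := by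
      unfold cjp
      simp only
      have e1 : cj (t * g) (Subgroup.zpowers x) = Subgroup.zpowers x := by
        rw [cj_zpowers]
        rw [Subgroup.mem_centralizer_singleton_iff] at hk0
        rw [hk0, mul_inv_cancel_right]
      rw [e1, mem_KFix.mp (isBl_be hbind.1).fix _ hk0]
    rw [h2] at h1
    have h3 : LEr 2 M (Subgroup.zpowers x, f) (P, e) := by rw [hxu]; exact hle
    exact LEr.uniq hM he hP h1 h3
  have hsum1 : ∑ x ∈ X.erase 1, ∑ b ∈ (Set.toFinite {b : Set (IrrCharacter (Subgroup.centralizer ({x} : Set G))) |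
      IsInducedBlock M (Subgroup.centralizer ({x} : Set G)) b B}).toFinset, blockRank 2 b = blockRank 2 b₀ := by
    rw [Finset.sum_eq_single u₀]
    · rw [Finset.sum_eq_single b₀]
      · intro b hb' hne
        exfalso
        apply hne
        rw [Set.Finite.mem_toFinset] at hb'
        apply be_injective hb'.1 hb₀
        rw [hbe₀]
        exact (hone u₀ (Finset.mem_erase.mpr ⟨hu₀1, hu₀X⟩) b hb').2
      · intro h
        exact absurd ((Set.Finite.mem_toFinset (Set.toFinite {b : Set (IrrCharacter (Subgroup.centralizer ({u₀} : Set G))) |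
          IsInducedBlock M (Subgroup.centralizer ({u₀} : Set G)) b B})).mpr hind₀) h
    · intro x hx hne
      apply Finset.sum_eq_zero
      intro b hb'
      rw [Set.Finite.mem_toFinset] at hb'
      exact absurd (hone x hx b hb').1 hne
    · intro h
      exact absurd (Finset.mem_erase.mpr ⟨hu₀1, hu₀X⟩) h
  -- the local block
  have hrank : blockRank 2 b₀ = 1 := by
    have hfH' : Fintype (Subgroup.centralizer ({u₀} : Set G)) := Fintype.ofFinite _
    have hPH : P ≤ Subgroup.centralizer ({u₀} : Set G) := by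
      intro w hw
      rw [Subgroup.mem_centralizer_singleton_iff]
      have := hab hw
      rw [Subgroup.mem_centralizer_iff] at this
      exact (this u₀ hu₀).symm
    have hCH : Subgroup.centralizer (P : Set G) ≤ Subgroup.centralizer ({u₀} : Set G) := by
      intro w hw
      rw [Subgroup.mem_centralizer_singleton_iff]
      rw [Subgroup.mem_centralizer_iff] at hw
      exact (hw u₀ hu₀).symm
    obtain ⟨a, ha⟩ := exists_embP (H := Subgroup.centralizer ({u₀} : Set G)) (a := (P, e)) hPH (KSup_mono hCH he.sup)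
    have ha1 : a.1.map (Subgroup.centralizer ({u₀} : Set G)).subtype = P := congrArg Prod.fst ha
    have ha2 : emk (KK M) (Subgroup.centralizer ({u₀} : Set G)) a.2 = e := congrArg Prod.snd ha
    have hbf : emk (KK M) (Subgroup.centralizer ({u₀} : Set G)) (blk M b₀) = f := by rw [← hbe₀, be_def]
    have htop : (⊤ : Subgroup (Subgroup.centralizer ({u₀} : Set G))).map (Subgroup.centralizer ({u₀} : Set G)).subtype = Subgroup.centralizer ({u₀} : Set G) := by
      rw [← MonoidHom.range_eq_map, Subgroup.range_subtype]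
    have hb1 : IsBl M (⊤ : Subgroup (Subgroup.centralizer ({u₀} : Set G))) (blk M b₀) := isBl_top hb₀
    have hD1 : Df 2 M (⊤ : Subgroup (Subgroup.centralizer ({u₀} : Set G))) (blk M b₀) a.1 := by
      rw [df_emk_iff, hbf, ha1, ← zc]; exact hdff
    have hBa : BP 2 M (blk M b₀) a := by
      rw [BP.emb (by rw [ha1]; exact hCH), ha, hbf]; exact hBPf
    have hmax1 : MaxP 2 M (blk M b₀) (a.1, a.2) := maxP_of_df hM hb1 hBa hD1
    have hc1 : Nat.card a.1 = 4 := by
      rw [← card_map_subtype, ha1, hc]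
    have hmemP : ∀ w ∈ a.1, (w : G) ∈ P := by
      intro w hw
      rw [← ha1]
      exact ⟨w, hw, rfl⟩
    apply klein_nil hM hb₀ hmax1 hc1
    · intro w hw
      exact Subtype.ext (hexp w (hmemP w hw))
    · intro t ht
      rw [Subgroup.mem_centralizer_iff]
      intro w hw
      have ht1 : (t : G) ∈ stb P e := by
        refine ⟨?_, ?_⟩
        · have h1 : (t : G) ∈ (Subgroup.normalizer (a.1 : Set (Subgroup.centralizer ({u₀} : Set G)))).map (Subgroup.centralizer ({u₀} : Set G)).subtype := ⟨t, ht.1, rfl⟩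
          rw [map_subtype_normalizer, ha1] at h1
          exact h1.1
        · have h1 := congrArg (emk (KK M) (Subgroup.centralizer ({u₀} : Set G))) ht.2
          rw [emk_kconj, ha2] at h1
          exact h1
      have ht2 : (t : G) * u₀ * (t : G)⁻¹ = u₀ := by
        have := t.2
        rw [Subgroup.mem_centralizer_singleton_iff] at this
        rw [this, mul_inv_cancel_right]
      have ht3 := hT1 t ht1 u₀ hu₀ hu₀1 ht2
      rw [Subgroup.mem_centralizer_iff] at ht3
      exact Subtype.ext (ht3 w (hmemP w hw))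
  rw [hsum1, hrank] at hsum
  omega

end

end Cfsg.Agent.H5
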