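import Cfsg.Agent.H5.W24
import Cfsg.Agent.H5.Block11

set_option autoImplicit false
set_option linter.style.haveILetI false
set_option linter.unusedVariables false
set_option linter.unusedSectionVars false
set_option linter.unusedSimpArgs false

/-! The coefficient of `1` in a `p`-power, and the principal block idempotent. -/

namespace Cfsg.Agent.H5

open Cfsg
open scoped ComplexConjugate

universe u v w

section pow

variable {k : Type w} [Field k] {G : Type u} [Group G] [Fintype G]

theorem kpow_expand (a : MonoidAlgebra k G) (m : ℕ) :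
    a ^ m = ∑ v : Fin m → G, (∏ i, a.coeff (v i)) • kof k (List.ofFn v).prod := by
  induction m with
  | zero =>
    rw [pow_zero]
    have h1 : (Finset.univ : Finset (Fin 0 → G)) = {Fin.elim0} := by
      ext v
      simp only [Finset.mem_univ, Finset.mem_singleton, true_iff]
      funext i; exact i.elim0
    rw [h1, Finset.sum_singleton]
    simp only [Finset.univ_eq_empty, Finset.prod_empty, List.ofFn_zero, List.prod_nil, one_smul]
    exact (kof_one).symm
  | succ m ih =>
    rw [pow_succ', ih, ← (Fin.consEquiv (fun _ => G)).sum_comp, Fintype.sum_prod_type]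
    have hs : ∀ c : MonoidAlgebra k G, a * c = ∑ g : G, (a.coeff g • kof k g) * c := by
      intro c
      rw [← Finset.sum_mul, ← sum_kof a]
    rw [hs]
    refine Finset.sum_congr rfl fun g _ => ?_
    rw [Finset.mul_sum]
    refine Finset.sum_congr rfl fun v _ => ?_
    rw [smul_mul_smul_comm, ← kof_mul]
    have e1 : ((Fin.consEquiv (fun _ : Fin (m + 1) => G)) (g, v)) = @Fin.cons m (fun _ => G) g v := rfl
    rw [e1, Fin.prod_univ_succ]
    simp only [Fin.cons_zero, Fin.cons_succ, List.ofFn_cons, List.prod_cons]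

/-- rotation -/
def rotP (m : ℕ) (G : Type u) : Equiv.Perm (Fin m → G) := Equiv.arrowCongr (finRotate m).symm (Equiv.refl G)

theorem rotP_apply (m : ℕ) (v : Fin m → G) : rotP m G v = v ∘ finRotate m := rfl

theorem rotP_pow (m j : ℕ) (v : Fin m → G) : (rotP m G ^ j) v = v ∘ ((finRotate m) ^ j : Equiv.Perm (Fin m)) := by
  induction j generalizing v with
  | zero => rfl
  | succ j ih =>
    rw [pow_succ, Equiv.Perm.mul_apply, ih, rotP_apply, pow_succ']
    rfl

theorem prod_rot {m : ℕ} (v : Fin (m + 1) → G) :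
    (List.ofFn (v ∘ finRotate (m + 1))).prod = (v 0)⁻¹ * (List.ofFn v).prod * v 0 := by
  have h1 : v ∘ finRotate (m + 1) = @Fin.snoc _ (fun _ => G) (Fin.tail v) (v 0) := by
    rw [Fin.snoc_eq_cons_rotate]
    funext i
    simp only [Function.comp]
    exact (congrFun (Fin.cons_self_tail v) (finRotate (m + 1) i)).symm
  have h2 : (List.ofFn v).prod = v 0 * (List.ofFn (Fin.tail v)).prod := by
    rw [List.ofFn_succ, List.prod_cons]; rfl
  rw [h1, h2, List.ofFn_succ']
  simp only [Fin.snoc_castSucc, Fin.snoc_last, List.concat_eq_append, List.prod_append, List.prod_singleton]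
  group

theorem prod_rot_iff {m : ℕ} (hm : 0 < m) (v : Fin m → G) :
    (List.ofFn (v ∘ finRotate m)).prod = 1 ↔ (List.ofFn v).prod = 1 := by
  cases m with
  | zero => exact absurd hm (lt_irrefl 0)
  | succ m =>
    rw [prod_rot v]
    constructor
    · intro h
      have : (List.ofFn v).prod = v 0 * ((v 0)⁻¹ * (List.ofFn v).prod * v 0) * (v 0)⁻¹ := by group
      rw [this, h]; group
    · intro h; rw [h]; group

variable {p : ℕ} [hp : Fact p.Prime] [CharP k p]

open Classical in
/-- The coefficient of `1` in a `p`-power. -/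
theorem kpow_coeff_one (a : MonoidAlgebra k G) {n : ℕ} (hn : n ≠ 0) :
    (a ^ p ^ n).coeff 1 = ∑ g : G, if g ^ p ^ n = 1 then a.coeff g ^ p ^ n else 0 := by
  obtain ⟨m, hm⟩ : ∃ m, p ^ n = m + 2 := by
    refine ⟨p ^ n - 2, ?_⟩
    have h1 : 2 ≤ p := hp.1.two_le
    have h2 : p ^ 1 ≤ p ^ n := Nat.pow_le_pow_right (by omega) (Nat.one_le_iff_ne_zero.mpr hn)
    rw [pow_one] at h2
    omega
  let f : (Fin (p ^ n) → G) → k := fun v => if (List.ofFn v).prod = 1 then ∏ i, a.coeff (v i) else 0
  have h1 : (a ^ p ^ n).coeff 1 = ∑ v : Fin (p ^ n) → G, f v := by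
    rw [kpow_expand a, kcoeff_sum]
    refine Finset.sum_congr rfl fun v _ => ?_
    simp only [f]
    have e1 : ((∏ i, a.coeff (v i)) • kof k (List.ofFn v).prod).coeff 1 = (∏ i, a.coeff (v i)) * (kof k (List.ofFn v).prod).coeff 1 := rfl
    rw [e1]
    have e2 : (kof k (List.ofFn v).prod).coeff 1 = if (List.ofFn v).prod = 1 then 1 else 0 := by
      have := kcoeff_single_mul (List.ofFn v).prod (1 : k) (1 : MonoidAlgebra k G) 1
      rw [mul_one, mul_one, one_mul, kcoeff_one] at this
      rw [this]
      simp only [inv_eq_one]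
    rw [e2]
    split_ifs <;> simp
  have hinv : ∀ v : Fin (p ^ n) → G, f (rotP (p ^ n) G v) = f v := by
    intro v
    simp only [f, rotP_apply]
    have e1 := prod_rot_iff (pow_pos hp.1.pos n) v
    have e2 : ∏ i, a.coeff ((v ∘ finRotate (p ^ n)) i) = ∏ i, a.coeff (v i) := by
      exact Equiv.prod_comp (finRotate (p ^ n)) (fun i => a.coeff (v i))
    rw [e2]
    by_cases h : (List.ofFn v).prod = 1
    · rw [if_pos h, if_pos (e1.mpr h)]
    · rw [if_neg h, if_neg (fun h' => h (e1.mp h'))]
  have hrotm : (finRotate (p ^ n)) ^ p ^ n = 1 := by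
    rw [hm]
    have h2 : orderOf (finRotate (m + 2)) = m + 2 := by
      rw [isCycle_finRotate.orderOf, support_finRotate, Finset.card_univ, Fintype.card_fin]
    have h3 := pow_orderOf_eq_one (finRotate (m + 2))
    rwa [h2] at h3
  have hσm : (rotP (p ^ n) G) ^ p ^ n = 1 := by
    ext v i
    rw [rotP_pow, hrotm]
    rfl
  have hPg : IsPGroup p (Subgroup.zpowers (rotP (p ^ n) G)) := by
    rintro ⟨g, j, rfl⟩
    refine ⟨n, ?_⟩
    apply Subtype.ext
    show ((rotP (p ^ n) G) ^ j) ^ p ^ n = 1
    rw [← zpow_natCast, ← zpow_mul, mul_comm, zpow_mul, zpow_natCast, hσm, one_zpow]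
  have hfin : ∀ (x : Subgroup.zpowers (rotP (p ^ n) G)) (v : Fin (p ^ n) → G), f (x • v) = f v := by
    let K : Subgroup (Equiv.Perm (Fin (p ^ n) → G)) :=
      { carrier := {g | ∀ v, f (g v) = f v}
        mul_mem' := fun {a b} ha hb v => by rw [Equiv.Perm.mul_apply, ha, hb]
        one_mem' := fun v => rfl
        inv_mem' := fun {a} ha v => by
          have h1 : f (a (a⁻¹ v)) = f (a⁻¹ v) := ha (a⁻¹ v)
          have h2 : a (a⁻¹ v) = v := Equiv.apply_symm_apply a v
          rw [h2] at h1
          exact h1.symm }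
    have hK : Subgroup.zpowers (rotP (p ^ n) G) ≤ K := by
      rw [Subgroup.zpowers_le]; exact hinv
    intro x v
    exact hK x.2 v
  rw [h1, ksum_fixedPoints (k := k) (V := k) hPg f hfin, ← Finset.sum_filter]
  have hfix : (Finset.univ.filter (fun v : Fin (p ^ n) → G => v ∈ MulAction.fixedPoints (Subgroup.zpowers (rotP (p ^ n) G)) (Fin (p ^ n) → G))) =
      (Finset.univ : Finset G).image (fun g => fun _ : Fin (p ^ n) => g) := by
    ext v
    simp only [Finset.mem_filter, Finset.mem_univ, true_and, Finset.mem_image]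
    constructor
    · intro h
      have h2 : rotP (p ^ n) G v = v := h ⟨rotP (p ^ n) G, Subgroup.mem_zpowers _⟩
      rw [rotP_apply] at h2
      have h3 : ∀ j : ℕ, ∀ i, v (((finRotate (p ^ n)) ^ j : Equiv.Perm _) i) = v i := by
        intro j
        induction j with
        | zero => intro i; rfl
        | succ j ih =>
          intro i
          rw [pow_succ, Equiv.Perm.mul_apply, ih]
          exact congrFun h2 i
      have hpos : 0 < p ^ n := pow_pos hp.1.pos n
      refine ⟨v ⟨0, hpos⟩, ?_⟩
      funext i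
      have hcyc : (finRotate (p ^ n)).IsCycle := by rw [hm]; exact isCycle_finRotate
      have hsup : (finRotate (p ^ n)).support = Finset.univ := by rw [hm]; exact support_finRotate
      obtain ⟨j, hj⟩ := hcyc.exists_pow_eq (x := (⟨0, hpos⟩ : Fin (p ^ n))) (y := i)
        (by rw [← Equiv.Perm.mem_support, hsup]; exact Finset.mem_univ _) (by rw [← Equiv.Perm.mem_support, hsup]; exact Finset.mem_univ _)
      rw [← hj]
      exact (h3 j _).symm
    · rintro ⟨g, rfl⟩
      rintro ⟨x, j, rfl⟩
      have h2 : rotP (p ^ n) G (fun _ => g) = fun _ => g := rfl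
      show ((rotP (p ^ n) G) ^ j) (fun _ => g) = fun _ => g
      exact Equiv.Perm.zpow_apply_eq_self_of_apply_eq_self h2 j
  rw [hfix, Finset.sum_image]
  · refine Finset.sum_congr rfl fun g _ => ?_
    simp only [f]
    rw [List.ofFn_const, List.prod_replicate, Finset.prod_const, Finset.card_univ, Fintype.card_fin]
  · intro g _ g' _ h
    exact congrFun h ⟨0, pow_pos hp.1.pos n⟩

end pow

end Cfsg.Agent.H5
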