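import Cfsg.Agent.H5.W37

set_option autoImplicit false
set_option linter.style.haveILetI false
set_option linter.unusedVariables false
set_option linter.unusedSectionVars false
set_option linter.unusedSimpArgs false

/-! Central subsections of the defect group. -/

namespace Cfsg.Agent.H5

open Cfsg
open scoped ComplexConjugate

universe u v w

variable {G : Type u} [Group G] [Fintype G] {p : ℕ} {M : Ideal AlgInt} [hM' : M.IsPrime]

theorem cen_df (hM : IsPModular p M) {b : MonoidAlgebra (KK M) G} (hb : IsBl M (⊤ : Subgroup G) b)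
    {P : Subgroup G} {e : MonoidAlgebra (KK M) G} (hmax : MaxP p M b (P, e))
    {Q : Subgroup G} {f : MonoidAlgebra (KK M) G} (hPC : P ≤ Subgroup.centralizer (Q : Set G)) (h : LEr p M (Q, f) (P, e)) :
    IsBl M (Subgroup.centralizer (Q : Set G)) f ∧ BP p M f (P, e) ∧ Df p M (Subgroup.centralizer (Q : Set G)) f P := by
  have hP := hmax.1.1
  have he := hmax.1.2.1
  simp only at hP he
  have hQP : Q ≤ P := LEr.le h
  have hf : IsBl M (Subgroup.centralizer (Q : Set G)) f := LEr.bl_left trivial h he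
  obtain ⟨g, hg, hgP⟩ := h.npr_of_normal hM hP he hQP le_rfl (le_trans hPC (centralizer_le_normalizer Q))
  have hge : (P, g) = (P, e) := LEr.eq_of_eq hM hgP rfl
  rw [hge] at hg
  have hBf : BP p M f (P, e) := ⟨hP, he, hg.2.2.2.2.2.2⟩
  refine ⟨hf, hBf, ?_⟩
  obtain ⟨z, hz1, hz2⟩ := pair_centralizer hM hb hmax h
  have h3 := hz2.conj_all z⁻¹
  rw [← cj_centralizer', cj_cj, inv_mul_cancel, cj_one, kconj_inv_kconj, cj_centralizer'] at h3
  apply h3.of_card hP hPC (ktr_ne_of_mul hg.2.2.2.2.2.2 he.ne)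
  rw [card_cj]
  exact Subgroup.card_le_of_le inf_le_left

/-- Fusion of central subgroups is controlled by the inertial group. -/
theorem cen_control (hM : IsPModular p M) {b : MonoidAlgebra (KK M) G} (hb : IsBl M (⊤ : Subgroup G) b)
    {P : Subgroup G} {e : MonoidAlgebra (KK M) G} (hmax : MaxP p M b (P, e))
    {Q : Subgroup G} {f : MonoidAlgebra (KK M) G} (hPC : P ≤ Subgroup.centralizer (Q : Set G))
    (h : LEr p M (Q, f) (P, e)) {x : G} (hPC' : P ≤ Subgroup.centralizer ((cj x Q : Subgroup G) : Set G))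
    (hx : LEr p M (cjp x (Q, f)) (P, e)) :
    ∃ y ∈ stb P e, ∃ c ∈ Subgroup.centralizer (Q : Set G), x = y * c := by
  have hP := hmax.1.1
  have he := hmax.1.2.1
  simp only at hP he
  have hQP : Q ≤ P := LEr.le h
  obtain ⟨-, hBf0, -⟩ := cen_df hM hb hmax hPC h
  obtain ⟨hf, hBf, hdf⟩ := cen_df hM hb hmax hPC' hx
  have hQ'P : cj x Q ≤ P := LEr.le hx
  have hBx : BP p M (kconj x f) (cj x P, kconj x e) := by
    refine ⟨isPGroup_cj hP, isBl_cj_centralizer he x, ?_⟩
    show ktr (Subgroup.centralizer ((cj x P : Subgroup G) : Set G)) (kconj x f) * kconj x e = kconj x e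
    rw [← map_conj_centralizer, ← kconj_ktr, ← kconj_mul]
    congr 1
    exact hBf0.2.2
  have hxC : cj x P ≤ Subgroup.centralizer ((cj x Q : Subgroup G) : Set G) := by
    have := cj_mono x hPC
    rwa [cj_centralizer'] at this
  have hCx : Subgroup.centralizer ((cj x P : Subgroup G) : Set G) ≤ Subgroup.centralizer ((cj x Q : Subgroup G) : Set G) := by
    have := cj_mono x (centralizer_anti hQP)
    rw [cj_centralizer', cj_centralizer' x Q] at this
    exact this
  obtain ⟨c, hc, hcle⟩ := rel_conj hM hf (centralizer_anti hQ'P) hCx hxC hdf hBf hBx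
  have h1 : cjp c (cj x P, kconj x e) = cjp (c * x) (P, e) := cjp_cjp c x (P, e)
  rw [h1] at hcle
  have h2 := cjp_eq_of_le hM hcle
  rw [← mem_stb_iff_cjp] at h2
  have hcN : cj (c * x) Q = cj x Q := by
    rw [← cj_cj]
    exact cj_of_normalizer (centralizer_le_normalizer _ hc)
  refine ⟨c * x, h2, (c * x)⁻¹ * c⁻¹ * (c * x), ?_, ?_⟩
  · exact centr_move hcN (Subgroup.inv_mem _ hc)
  · group

open Classical in
/-- The contributions of distinct subsections sum to at most one. -/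
theorem sum_sub_le (hp : p.Prime) (χ : IrrCharacter G) (S : Finset (G × MonoidAlgebra (KK M) G))
    (hS : ∀ y ∈ S, ∃ k : ℕ, orderOf y.1 = p ^ k) :
    ∑ y ∈ S, (Nat.card (Subgroup.centralizer ({y.1} : Set G)) : ℝ) *
      cN p M (Subgroup.centralizer ({y.1} : Set G)) y.1 y.2 (χ : G → ℂ) ≤ (Nat.card G : ℝ) := by
  obtain ⟨X, hX⟩ : ∃ X, X = S.image Prod.fst := ⟨_, rfl⟩
  obtain ⟨Y, hY⟩ : ∃ Y, Y = S.image Prod.snd := ⟨_, rfl⟩
  have h1 : ∑ y ∈ S, (Nat.card (Subgroup.centralizer ({y.1} : Set G)) : ℝ) *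
      cN p M (Subgroup.centralizer ({y.1} : Set G)) y.1 y.2 (χ : G → ℂ) ≤
      ∑ y ∈ X ×ˢ Y, (Nat.card (Subgroup.centralizer ({y.1} : Set G)) : ℝ) *
      cN p M (Subgroup.centralizer ({y.1} : Set G)) y.1 y.2 (χ : G → ℂ) := by
    apply Finset.sum_le_sum_of_subset_of_nonneg
    · intro y hy
      rw [Finset.mem_product, hX, hY]
      exact ⟨Finset.mem_image_of_mem _ hy, Finset.mem_image_of_mem _ hy⟩
    · intro y _ _
      exact mul_nonneg (Nat.cast_nonneg _) (cN_nonneg _ _ _ _)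
  refine h1.trans ?_
  rw [Finset.sum_product]
  have h2 : ∀ x ∈ X, ∑ f ∈ Y, (Nat.card (Subgroup.centralizer ({x} : Set G)) : ℝ) *
      cN p M (Subgroup.centralizer ({x} : Set G)) x f (χ : G → ℂ) ≤
      ∑ g : G, if IsPPart p g x then ‖(χ : G → ℂ) g‖ ^ 2 else 0 := by
    intro x hx
    rw [← Finset.mul_sum]
    refine (sum_cN_le (hcomm_of_eq rfl) (irr_classFun χ) Y).trans (le_of_eq ?_)
    have hxp : ∃ k : ℕ, orderOf x = p ^ k := by
      rw [hX, Finset.mem_image] at hx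
      obtain ⟨y, hy, rfl⟩ := hx
      exact hS y hy
    have h3 := sum_ppart_eq hp x hxp (fun g => ((‖(χ : G → ℂ) g‖ ^ 2 : ℝ) : ℂ))
    have h4 : ((∑ y : Subgroup.centralizer ({x} : Set G), (if p ∣ orderOf y then 0 else ‖(χ : G → ℂ) (x * y)‖ ^ 2) : ℝ) : ℂ) =
        ((∑ g : G, if IsPPart p g x then ‖(χ : G → ℂ) g‖ ^ 2 else 0 : ℝ) : ℂ) := by
      push_cast
      convert h3 using 2
      · split_ifs <;> simp
      · split_ifs <;> simp
    exact_mod_cast h4
  refine (Finset.sum_le_sum h2).trans ?_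
  rw [Finset.sum_comm]
  have h5 : ∀ g : G, ∑ x ∈ X, (if IsPPart p g x then ‖(χ : G → ℂ) g‖ ^ 2 else 0) ≤ ‖(χ : G → ℂ) g‖ ^ 2 := by
    intro g
    obtain ⟨x₀, hx₀⟩ := exists_pPart hp g
    have h6 : ∀ x ∈ X, (if IsPPart p g x then ‖(χ : G → ℂ) g‖ ^ 2 else 0) = if x₀ = x then ‖(χ : G → ℂ) g‖ ^ 2 else 0 := by
      intro x _
      by_cases h : x₀ = x
      · rw [if_pos h, if_pos (h ▸ hx₀)]
      · rw [if_neg h, if_neg (fun h' => h (pPart_unique hp hx₀ h'))]
    rw [Finset.sum_congr rfl h6, Finset.sum_ite_eq]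
    split_ifs
    · exact le_rfl
    · positivity
  refine (Finset.sum_le_sum fun g _ => h5 g).trans (le_of_eq ?_)
  have h7 := classInner_irr_self χ
  rw [classInner_self_re] at h7
  have h8 : (Nat.card G : ℝ)⁻¹ * ∑ g : G, ‖(χ : G → ℂ) g‖ ^ 2 = 1 := by exact_mod_cast h7
  have hcG : (Nat.card G : ℝ) ≠ 0 := Nat.cast_ne_zero.mpr Nat.card_pos.ne'
  field_simp at h8
  exact h8

end Cfsg.Agent.H5
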