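import Cfsg.Agent.H5.W38

set_option autoImplicit false
set_option linter.style.haveILetI false
set_option linter.unusedVariables false
set_option linter.unusedSectionVars false
set_option linter.unusedSimpArgs false

/-! Heights and the inertial index. -/

namespace Cfsg.Agent.H5

open Cfsg
open scoped ComplexConjugate

universe u v w

theorem zpowers_pow_coprime {G : Type u} [Group G] [Finite G] {z : G} {k : ℕ} (hk : k.Coprime (Nat.card G)) :
    Subgroup.zpowers (z ^ k) = Subgroup.zpowers z := by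
  have h1 : k.Coprime (orderOf z) := Nat.Coprime.coprime_dvd_right (orderOf_dvd_natCard z) hk
  apply le_antisymm
  · rw [Subgroup.zpowers_le]
    exact Subgroup.pow_mem _ (Subgroup.mem_zpowers z) k
  · rw [Subgroup.zpowers_le]
    obtain ⟨m, hm⟩ := exists_pow_eq_self_of_coprime h1
    have h := Subgroup.pow_mem (Subgroup.zpowers (z ^ k)) (Subgroup.mem_zpowers _) m
    rwa [hm] at h

variable {G : Type u} [Group G] [Fintype G] {p : ℕ} {M : Ideal AlgInt} [hM' : M.IsPrime]

theorem card_center_filter (D : Subgroup G) [DecidablePred fun z : G => z ∈ D ∧ z ∈ Subgroup.centralizer (D : Set G)] :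
    (Finset.univ.filter (fun z : G => z ∈ D ∧ z ∈ Subgroup.centralizer (D : Set G))).card = Nat.card (Subgroup.center D) := by
  classical
  rw [← Fintype.card_subtype, ← Nat.card_eq_fintype_card]
  apply Nat.card_congr
  refine ⟨fun z => ⟨⟨z.1, z.2.1⟩, ?_⟩, fun z => ⟨(z.1 : G), z.1.2, ?_⟩, fun z => rfl, fun z => rfl⟩
  · rw [Subgroup.mem_center_iff]
    intro d
    exact Subtype.ext ((Subgroup.mem_centralizer_iff.mp z.2.2) d d.2)
  · rw [Subgroup.mem_centralizer_iff]
    intro d hd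
    exact congrArg Subtype.val ((Subgroup.mem_center_iff.mp z.2) ⟨d, hd⟩)

/-- The subsections attached to the center of a defect group. -/
theorem center_sub (hM : IsPModular p M) {B : Set (IrrCharacter G)} (hB : IsPBlock M B) {D : Subgroup G}
    {e : MonoidAlgebra (KK M) G} (hmax : MaxP p M (blk M B) (D, e)) {z : G} (hz : z ∈ D)
    (hzc : z ∈ Subgroup.centralizer (D : Set G)) {f : MonoidAlgebra (KK M) G}
    (hf : LEr p M (Subgroup.zpowers z, f) (D, e)) :
    IsInducedBlock M (Subgroup.centralizer ({z} : Set G)) (lset M (Subgroup.centralizer ({z} : Set G)) f) B ∧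
      blockDefect p (lset M (Subgroup.centralizer ({z} : Set G)) f) = blockDefect p B := by
  classical
  have hD := hmax.1.1
  have hzp : ∃ k : ℕ, orderOf z = p ^ k := by
    haveI : Fact p.Prime := ⟨hM.1⟩
    obtain ⟨k, hk⟩ := (IsPGroup.iff_orderOf.mp hD) ⟨z, hz⟩
    exact ⟨k, by rw [← hk, ← Subgroup.orderOf_coe]⟩
  have hDz : D ≤ Subgroup.centralizer ((Subgroup.zpowers z : Subgroup G) : Set G) := by
    rw [zc]
    intro d hd
    rw [Subgroup.mem_centralizer_singleton_iff]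
    exact (Subgroup.mem_centralizer_iff.mp hzc) d hd
  obtain ⟨h1, h2, h3⟩ := cen_df hM (isBl_top hB) hmax hDz hf
  rw [zc] at h1 h3 hDz
  obtain ⟨b, hb, hbf⟩ := exists_be h1
  rw [← hbf] at hf h3 ⊢
  rw [lset_be hb]
  constructor
  · rw [induced_iff_bp hM hB hzp hb]
    exact BP.of_le hM (isBl_top hB) hf hmax.1
  · rw [← isDefectGroup_subgroupOf_iff hM hb hDz] at h3
    have h4 := card_defectGroup hM hb h3
    have h5 := MaxP.df hM (isBl_top hB) hmax
    rw [← isDefectGroup_iff_df hM hB] at h5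
    have h6 := card_defectGroup hM hB h5
    rw [Nat.card_congr (Subgroup.subgroupOfEquivOfLe hDz).toEquiv] at h4
    simp only at h6
    rw [h4] at h6
    exact Nat.pow_right_injective hM.1.two_le h6

open Classical in
theorem center_amgm (hM : IsPModular p M) {B : Set (IrrCharacter G)} (hB : IsPBlock M B) {D : Subgroup G}
    {e : MonoidAlgebra (KK M) G} (hmax : MaxP p M (blk M B) (D, e)) {χ : IrrCharacter G} (hχ : χ ∈ B)
    (fz : G → MonoidAlgebra (KK M) G)
    (hfz : ∀ z, z ∈ D → LEr p M (Subgroup.zpowers z, fz z) (D, e)) :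
    ((Finset.univ.filter (fun z : G => z ∈ D ∧ z ∈ Subgroup.centralizer (D : Set G))).card : ℝ) *
      (p : ℝ) ^ blockHeight p B (χ : G → ℂ) ≤
      (p : ℝ) ^ blockDefect p B * ∑ z ∈ Finset.univ.filter (fun z : G => z ∈ D ∧ z ∈ Subgroup.centralizer (D : Set G)),
        cN p M (Subgroup.centralizer ({z} : Set G)) z (fz z) (χ : G → ℂ) := by
  haveI : Fact p.Prime := ⟨hM.1⟩
  obtain ⟨Z, hZ⟩ : ∃ Z : Finset G, Z = Finset.univ.filter (fun z : G => z ∈ D ∧ z ∈ Subgroup.centralizer (D : Set G)) := ⟨_, rfl⟩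
  rw [← hZ]
  have hD := hmax.1.1
  have he := hmax.1.2.1
  simp only at hD he
  have hZm : ∀ z, z ∈ Z ↔ z ∈ D ∧ z ∈ Subgroup.centralizer (D : Set G) := by intro z; rw [hZ]; simp
  have hzp : ∀ z, z ∈ D → ∃ k : ℕ, orderOf z = p ^ k := by
    intro z hz
    obtain ⟨k, hk⟩ := (IsPGroup.iff_orderOf.mp hD) ⟨z, hz⟩
    exact ⟨k, by rw [← hk, ← Subgroup.orderOf_coe]⟩
  have hsub : ∀ z ∈ Z, IsInducedBlock M (Subgroup.centralizer ({z} : Set G)) (lset M (Subgroup.centralizer ({z} : Set G)) (fz z)) B ∧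
      blockDefect p (lset M (Subgroup.centralizer ({z} : Set G)) (fz z)) = blockDefect p B := by
    intro z hz
    have h1 := (hZm z).mp hz
    exact center_sub hM hB hmax h1.1 h1.2 (hfz z h1.1)
  obtain ⟨m, hm⟩ : ∃ m : G → ℂ, m = fun z => mcon p z (lset M (Subgroup.centralizer ({z} : Set G)) (fz z)) (χ : G → ℂ) (χ : G → ℂ) := ⟨_, rfl⟩
  obtain ⟨a, ha⟩ : ∃ a : G → ℝ, a = fun z => (p : ℝ) ^ blockDefect p B * cN p M (Subgroup.centralizer ({z} : Set G)) z (fz z) (χ : G → ℂ) := ⟨_, rfl⟩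
  have hma : ∀ z ∈ Z, m z = ((a z : ℝ) : ℂ) := by
    intro z hz
    rw [hm, ha]
    simp only
    unfold mcon
    rw [con_eq_cN, (hsub z hz).2]
    push_cast; rfl
  have hp0 : (0 : ℝ) < p := by exact_mod_cast hM.1.pos
  have hapos : ∀ z ∈ Z, 0 < a z := by
    intro z hz
    rw [ha]
    have h1 := (hZm z).mp hz
    exact mul_pos (pow_pos hp0 _) (cN_pos hM (hzp z h1.1) rfl hB (hsub z hz).1 (hsub z hz).2 hχ)
  -- Galois action
  have haut : ∀ z ∈ Z, ∀ (k : ℕ) (τ : ℂ ≃+* ℂ), k.Coprime (Nat.card G) → (∀ w : ℂ, w ^ Nat.card G = 1 → τ w = w ^ k) →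
      z ^ k ∈ Z ∧ τ (m z) = m (z ^ k) := by
    intro z hz k τ hk hτ
    have h1 := (hZm z).mp hz
    have hzk : z ^ k ∈ Z := (hZm _).mpr ⟨D.pow_mem h1.1 k, Subgroup.pow_mem _ h1.2 k⟩
    refine ⟨hzk, ?_⟩
    have h2 : Subgroup.zpowers (z ^ k) = Subgroup.zpowers z := zpowers_pow_coprime hk
    have h3 : fz (z ^ k) = fz z := by
      have h4 := hfz (z ^ k) (D.pow_mem h1.1 k)
      rw [h2] at h4
      exact LEr.uniq hM he hD h4 (hfz z h1.1)
    have h4 : Subgroup.centralizer ({z ^ k} : Set G) = Subgroup.centralizer ({z} : Set G) := by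
      rw [← zc, ← zc, h2]
    have h5 := mcon_aut hM (mem_of_eq (x := z) rfl) (hcomm_of_eq (x := z) rfl) (irr_isCharacter χ) (hsub z hz).1.1 hτ
    rw [hm]
    simp only
    rw [h5]
    obtain ⟨C, hC⟩ : ∃ C, C = Subgroup.centralizer ({z} : Set G) := ⟨_, rfl⟩
    have h6 : ∀ C' : Subgroup G, C' = Subgroup.centralizer ({z} : Set G) →
        mcon p (z ^ k) (lset M (Subgroup.centralizer ({z} : Set G)) (fz z)) (χ : G → ℂ) (χ : G → ℂ) =
        mcon p (z ^ k) (lset M C' (fz z)) (χ : G → ℂ) (χ : G → ℂ) := by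
      rintro C' rfl; rfl
    rw [h6 _ h4, h3]
  have hprod : ∀ (k : ℕ) (τ : ℂ ≃+* ℂ), k.Coprime (Nat.card G) → (∀ w : ℂ, w ^ Nat.card G = 1 → τ w = w ^ k) →
      τ (∏ z ∈ Z, m z) = ∏ z ∈ Z, m z := by
    intro k τ hk hτ
    rw [map_prod, Finset.prod_congr rfl (fun z hz => (haut z hz k τ hk hτ).2)]
    have hbij := powCoprime_bijective' (G := G) hk
    have himg : Z.image (fun z => z ^ k) = Z := by
      apply Finset.eq_of_subset_of_card_le
      · intro y hy
        rw [Finset.mem_image] at hy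
        obtain ⟨z, hz, rfl⟩ := hy
        exact (haut z hz k τ hk hτ).1
      · rw [Finset.card_image_of_injective _ hbij.injective]
    conv_rhs => rw [← himg]
    rw [Finset.prod_image (fun x _ y _ h => hbij.injective h)]
  have hmem : (∏ z ∈ Z, m z) ∈ cyF (Nat.card G) := by
    apply prod_mem
    intro z hz
    rw [hm]
    exact mcon_mem_cyF hM (mem_of_eq (x := z) rfl) (hcomm_of_eq (x := z) rfl) (irr_isCharacter χ) (irr_isCharacter χ) (hsub z hz).1.1
  obtain ⟨q, hq⟩ := rational_of_fixed Nat.card_pos.ne' hmem hprod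
  have hint : IsIntegral ℤ (∏ z ∈ Z, m z) := by
    apply IsIntegral.prod
    intro z hz
    rw [hm]
    exact mcon_integral hM (mem_of_eq (x := z) rfl) (hcomm_of_eq (x := z) rfl) (irr_isCharacter χ) (irr_isCharacter χ) (hsub z hz).1.1
  obtain ⟨N, hN⟩ := int_of_isIntegral_rat hint hq
  obtain ⟨h, hh⟩ : ∃ h, h = blockHeight p B (χ : G → ℂ) := ⟨_, rfl⟩
  rw [← hh]
  have hdvd : (p : ℤ) ^ (h * Z.card) ∣ N := by
    apply int_dvd_of_locR hM
    rw [← hN]
    have e1 : (∏ z ∈ Z, m z) / (p : ℂ) ^ (h * Z.card) = ∏ z ∈ Z, (m z / ((p ^ h : ℕ) : ℂ)) := by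
      rw [Finset.prod_div_distrib, Finset.prod_const, pow_mul]
      push_cast; rfl
    rw [e1]
    apply memLocR_prod
    intro z hz
    have h1 := (hZm z).mp hz
    rw [hm, hh]
    exact mcon_locR hM (hzp z h1.1) rfl (hsub z hz).1.1 (hsub z hz).2 (irr_isCharacter χ) hχ
  have hNr : (N : ℝ) = ∏ z ∈ Z, a z := by
    have e1 : ((N : ℝ) : ℂ) = ((∏ z ∈ Z, a z : ℝ) : ℂ) := by
      push_cast
      rw [← hN]
      exact Finset.prod_congr rfl hma
    exact_mod_cast e1
  have hNpos : 0 < N := by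
    have : (0 : ℝ) < (N : ℝ) := by rw [hNr]; exact Finset.prod_pos hapos
    exact_mod_cast this
  have hge : (p : ℤ) ^ (h * Z.card) ≤ N := Int.le_of_dvd hNpos hdvd
  have hph : (0 : ℝ) < (p : ℝ) ^ h := pow_pos hp0 _
  have hfin := amgm_one Z (fun z => a z / (p : ℝ) ^ h) (fun z hz => div_pos (hapos z hz) hph) (by
    rw [Finset.prod_div_distrib, Finset.prod_const, ← hNr, ← pow_mul, le_div_iff₀ (pow_pos hp0 _), one_mul]
    exact_mod_cast hge)
  rw [← Finset.sum_div, le_div_iff₀ hph] at hfin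
  refine hfin.trans (le_of_eq ?_)
  rw [Finset.mul_sum, ha]

end Cfsg.Agent.H5
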