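import Cfsg.Agent.H5.W39

set_option autoImplicit false
set_option linter.style.haveILetI false
set_option linter.unusedVariables false
set_option linter.unusedSectionVars false
set_option linter.unusedSimpArgs false

/-! Counting conjugates of central subsections. -/

namespace Cfsg.Agent.H5

open Cfsg
open scoped ComplexConjugate

universe u v w

theorem centralizer_conj_single {G : Type u} [Group G] [Fintype G] (g x : G) :
    Subgroup.centralizer ({g * x * g⁻¹} : Set G) = (Subgroup.centralizer ({x} : Set G)).map (MulAut.conj g).toMonoidHom := by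
  rw [← zc, ← zc, map_conj_centralizer]
  have h := cj_zpowers g x
  unfold cj at h
  rw [h]

open Classical in
/-- The number of elements of `C g₀ T`. -/
theorem card_double_le {G : Type u} [Group G] [Fintype G] {C H T : Subgroup G} {g₀ : G} (hHT : H ≤ T)
    (hH : ∀ h ∈ H, g₀ * h * g₀⁻¹ ∈ C) (S : Finset G) (hS : ∀ g ∈ S, ∃ k ∈ C, ∃ t ∈ T, g = k * g₀ * t) :
    S.card ≤ Nat.card C * H.relIndex T := by
  have h1 : S ⊆ (Finset.univ : Finset (C × (T ⧸ H.subgroupOf T))).image (fun x => (x.1 : G) * g₀ * ((Quotient.out x.2 : T) : G)⁻¹) := by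
    intro g hg
    obtain ⟨k, hk, t, ht, rfl⟩ := hS g hg
    rw [Finset.mem_image]
    obtain ⟨q, hq⟩ : ∃ q : T ⧸ H.subgroupOf T, q = QuotientGroup.mk (⟨t, ht⟩ : T)⁻¹ := ⟨_, rfl⟩
    obtain ⟨h, hh⟩ := QuotientGroup.mk_out_eq_mul (H.subgroupOf T) (⟨t, ht⟩ : T)⁻¹
    have h2 : ((Quotient.out q : T) : G) = t⁻¹ * (h : T) := by
      rw [hq]
      have := congrArg (fun y : T => (y : G)) hh
      simpa using this
    have hhH : ((h : T) : G) ∈ H := Subgroup.mem_subgroupOf.mp h.2
    refine ⟨(⟨k * (g₀ * ((h : T) : G) * g₀⁻¹), C.mul_mem hk (hH _ hhH)⟩, q), Finset.mem_univ _, ?_⟩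
    simp only
    rw [h2]
    group
  calc S.card ≤ ((Finset.univ : Finset (C × (T ⧸ H.subgroupOf T))).image (fun x => (x.1 : G) * g₀ * ((Quotient.out x.2 : T) : G)⁻¹)).card :=
        Finset.card_le_card h1
    _ ≤ (Finset.univ : Finset (C × (T ⧸ H.subgroupOf T))).card := Finset.card_image_le
    _ = Nat.card C * H.relIndex T := by
        rw [Finset.card_univ, Fintype.card_prod, Nat.card_eq_fintype_card, Subgroup.relIndex, Subgroup.index, Nat.card_eq_fintype_card]

variable {G : Type u} [Group G] [Fintype G] {p : ℕ} {M : Ideal AlgInt} [hM' : M.IsPrime]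

open Classical in
theorem center_count (hM : IsPModular p M) {B : Set (IrrCharacter G)} (hB : IsPBlock M B) {D : Subgroup G}
    {e : MonoidAlgebra (KK M) G} (hmax : MaxP p M (blk M B) (D, e)) (χ : IrrCharacter G)
    (fz : G → MonoidAlgebra (KK M) G)
    (hfz : ∀ z, z ∈ D → LEr p M (Subgroup.zpowers z, fz z) (D, e)) {E : ℕ}
    (hE : (D ⊔ Subgroup.centralizer (D : Set G)).relIndex (stb D e) ≤ E) :
    ∑ z ∈ Finset.univ.filter (fun z : G => z ∈ D ∧ z ∈ Subgroup.centralizer (D : Set G)),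
        cN p M (Subgroup.centralizer ({z} : Set G)) z (fz z) (χ : G → ℂ) ≤ (E : ℝ) := by
  haveI : Fact p.Prime := ⟨hM.1⟩
  obtain ⟨Z, hZ⟩ : ∃ Z : Finset G, Z = Finset.univ.filter (fun z : G => z ∈ D ∧ z ∈ Subgroup.centralizer (D : Set G)) := ⟨_, rfl⟩
  rw [← hZ]
  have hZm : ∀ z, z ∈ Z ↔ z ∈ D ∧ z ∈ Subgroup.centralizer (D : Set G) := by intro z; rw [hZ]; simp
  have hD := hmax.1.1
  have he := hmax.1.2.1
  simp only at hD he
  obtain ⟨φ, hφ⟩ : ∃ φ : G × MonoidAlgebra (KK M) G → ℝ,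
    φ = fun y => cN p M (Subgroup.centralizer ({y.1} : Set G)) y.1 y.2 (χ : G → ℂ) := ⟨_, rfl⟩
  obtain ⟨F, hF⟩ : ∃ F : G × G → G × MonoidAlgebra (KK M) G, F = fun a => (a.1 * a.2 * a.1⁻¹, kconj a.1 (fz a.2)) := ⟨_, rfl⟩
  have hφF : ∀ g z : G, φ (F (g, z)) = φ (z, fz z) := by
    intro g z
    rw [hφ, hF]
    exact cN_conj (centralizer_conj_single g z) z (fz z) (irr_classFun χ)
  have hsum : ∑ a ∈ (Finset.univ : Finset G) ×ˢ Z, φ (F a) = (Nat.card G : ℝ) * ∑ z ∈ Z, φ (z, fz z) := by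
    rw [Finset.sum_product]
    simp only [hφF]
    rw [Finset.sum_const, nsmul_eq_mul, Finset.card_univ, Nat.card_eq_fintype_card]
  rw [Finset.sum_comp φ F] at hsum
  have hfib : ∀ y ∈ ((Finset.univ : Finset G) ×ˢ Z).image F, (((Finset.univ : Finset G) ×ˢ Z).filter (fun a => F a = y)).card ≤
      Nat.card (Subgroup.centralizer ({y.1} : Set G)) * E := by
    intro y hy
    rw [Finset.mem_image] at hy
    obtain ⟨⟨g₀, z₀⟩, ha₀, rfl⟩ := hy
    have hz₀ : z₀ ∈ Z := (Finset.mem_product.mp ha₀).2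
    obtain ⟨S, hS⟩ : ∃ S : Finset G, S = (((Finset.univ : Finset G) ×ˢ Z).filter (fun a => F a = F (g₀, z₀))).image Prod.fst := ⟨_, rfl⟩
    have hcard : (((Finset.univ : Finset G) ×ˢ Z).filter (fun a => F a = F (g₀, z₀))).card = S.card := by
      rw [hS, Finset.card_image_of_injOn]
      rintro ⟨g, z⟩ ha ⟨g', z'⟩ ha' hgg
      rw [Finset.mem_coe, Finset.mem_filter] at ha ha'
      have h1 := congrArg Prod.fst ha.2
      have h2 := congrArg Prod.fst ha'.2
      rw [hF] at h1 h2
      simp only at h1 h2 hgg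
      subst hgg
      have h3 : g * z * g⁻¹ = g * z' * g⁻¹ := h1.trans h2.symm
      have h4 : z = z' := by simpa using h3
      rw [h4]
    rw [hcard]
    refine (card_double_le (C := Subgroup.centralizer ({(F (g₀, z₀)).1} : Set G)) (H := D ⊔ Subgroup.centralizer (D : Set G))
      (T := stb D e) (g₀ := g₀) ?_ ?_ S ?_).trans (Nat.mul_le_mul_left _ hE)
    · exact sup_le (le_stb he.sup) (centralizer_le_stb he)
    · intro h hh
      have h1 : D ⊔ Subgroup.centralizer (D : Set G) ≤ Subgroup.centralizer ({z₀} : Set G) := by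
        have h2 := (hZm z₀).mp hz₀
        apply sup_le
        · intro d hd
          rw [Subgroup.mem_centralizer_singleton_iff]
          exact (Subgroup.mem_centralizer_iff.mp h2.2) d hd
        · intro d hd
          rw [Subgroup.mem_centralizer_singleton_iff]
          exact ((Subgroup.mem_centralizer_iff.mp hd) z₀ h2.1).symm
      have h2 : (F (g₀, z₀)).1 = g₀ * z₀ * g₀⁻¹ := by rw [hF]
      rw [h2, centralizer_conj_single]
      exact ⟨h, h1 hh, rfl⟩
    · intro g hg
      rw [hS, Finset.mem_image] at hg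
      obtain ⟨⟨g', z⟩, ha, rfl⟩ := hg
      simp only
      rw [Finset.mem_filter, Finset.mem_product] at ha
      have hz : z ∈ Z := ha.1.2
      have h1 := congrArg Prod.fst ha.2
      have h2 := congrArg Prod.snd ha.2
      rw [hF] at h1 h2
      simp only at h1 h2
      have hzD := (hZm z).mp hz
      have hzD₀ := (hZm z₀).mp hz₀
      have hcen : ∀ w, w ∈ D → w ∈ Subgroup.centralizer (D : Set G) →
          D ≤ Subgroup.centralizer ((Subgroup.zpowers w : Subgroup G) : Set G) := by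
        intro w hw hwc
        rw [zc]
        intro d hd
        rw [Subgroup.mem_centralizer_singleton_iff]
        exact (Subgroup.mem_centralizer_iff.mp hwc) d hd
      obtain ⟨y, hy⟩ : ∃ y, y = g₀⁻¹ * g' := ⟨_, rfl⟩
      have h3 : y * z * y⁻¹ = z₀ := by
        rw [hy]
        have : g₀⁻¹ * g' * z * (g₀⁻¹ * g')⁻¹ = g₀⁻¹ * (g' * z * g'⁻¹) * g₀ := by group
        rw [this, h1]; group
      have h4 : kconj y (fz z) = fz z₀ := by
        rw [hy, ← kconj_kconj, h2, kconj_inv_kconj]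
      have h5 : cj y (Subgroup.zpowers z) = Subgroup.zpowers z₀ := by
        rw [cj_zpowers, h3]
      have h6 : cjp y (Subgroup.zpowers z, fz z) = (Subgroup.zpowers z₀, fz z₀) := by
        show (cj y (Subgroup.zpowers z), kconj y (fz z)) = _
        rw [h5, h4]
      obtain ⟨t, ht, c, hc, htc⟩ := cen_control hM (isBl_top hB) hmax (hcen z hzD.1 hzD.2) (hfz z hzD.1) (x := y)
        (by rw [h5]; exact hcen z₀ hzD₀.1 hzD₀.2) (by rw [h6]; exact hfz z₀ hzD₀.1)
      refine ⟨g₀ * (t * c * t⁻¹) * g₀⁻¹, ?_, t, ht, ?_⟩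
      · have h7 : (F (g₀, z₀)).1 = g₀ * z₀ * g₀⁻¹ := by rw [hF]
        rw [h7, centralizer_conj_single]
        refine ⟨t * c * t⁻¹, ?_, rfl⟩
        rw [zc, Subgroup.mem_centralizer_singleton_iff] at hc
        have h8 : z₀ = t * z * t⁻¹ := by
          rw [← h3, htc]
          have : t * c * z * (t * c)⁻¹ = t * (c * z) * c⁻¹ * t⁻¹ := by group
          rw [this, hc]; group
        show t * c * t⁻¹ ∈ Subgroup.centralizer ({z₀} : Set G)
        rw [Subgroup.mem_centralizer_singleton_iff, h8]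
        have e1 : t * c * t⁻¹ * (t * z * t⁻¹) = t * (c * z) * t⁻¹ := by group
        have e2 : t * z * t⁻¹ * (t * c * t⁻¹) = t * (z * c) * t⁻¹ := by group
        rw [e1, e2, hc]
      · have h9 : g' = g₀ * y := by rw [hy]; group
        rw [h9, htc]; group
  have hle : ∑ y ∈ ((Finset.univ : Finset G) ×ˢ Z).image F, (((Finset.univ : Finset G) ×ˢ Z).filter (fun a => F a = y)).card • φ y ≤
      (E : ℝ) * (Nat.card G : ℝ) := by
    have h1 := sum_sub_le (M := M) hM.1 χ (((Finset.univ : Finset G) ×ˢ Z).image F) (by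
      intro y hy
      rw [Finset.mem_image] at hy
      obtain ⟨⟨g₀, z₀⟩, ha₀, rfl⟩ := hy
      have hz₀ : z₀ ∈ Z := (Finset.mem_product.mp ha₀).2
      have h2 := (hZm z₀).mp hz₀
      obtain ⟨k, hk⟩ := (IsPGroup.iff_orderOf.mp hD) ⟨z₀, h2.1⟩
      refine ⟨k, ?_⟩
      rw [hF]
      simp only
      have h3 : orderOf (g₀ * z₀ * g₀⁻¹) = orderOf z₀ := (MulAut.conj g₀).orderOf_eq z₀
      rw [h3, ← hk, ← Subgroup.orderOf_coe])
    calc ∑ y ∈ ((Finset.univ : Finset G) ×ˢ Z).image F, (((Finset.univ : Finset G) ×ˢ Z).filter (fun a => F a = y)).card • φ y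
        ≤ ∑ y ∈ ((Finset.univ : Finset G) ×ˢ Z).image F, (E : ℝ) * ((Nat.card (Subgroup.centralizer ({y.1} : Set G)) : ℝ) * φ y) := by
          apply Finset.sum_le_sum
          intro y hy
          rw [nsmul_eq_mul, ← mul_assoc]
          have h2 : ((((Finset.univ : Finset G) ×ˢ Z).filter (fun a => F a = y)).card : ℝ) ≤
              (E : ℝ) * (Nat.card (Subgroup.centralizer ({y.1} : Set G)) : ℝ) := by
            rw [mul_comm]; exact_mod_cast hfib y hy
          apply mul_le_mul_of_nonneg_right h2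
          rw [hφ]; exact cN_nonneg _ _ _ _
      _ = (E : ℝ) * ∑ y ∈ ((Finset.univ : Finset G) ×ˢ Z).image F, ((Nat.card (Subgroup.centralizer ({y.1} : Set G)) : ℝ) * φ y) := by
          rw [Finset.mul_sum]
      _ ≤ (E : ℝ) * (Nat.card G : ℝ) := by
          apply mul_le_mul_of_nonneg_left _ (Nat.cast_nonneg _)
          rw [hφ]; exact h1
  rw [hsum] at hle
  have hcG : (0 : ℝ) < Nat.card G := by exact_mod_cast Nat.card_pos
  have h2 : ∑ z ∈ Z, φ (z, fz z) ≤ (E : ℝ) := by
    rw [mul_comm (E : ℝ)] at hle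
    exact le_of_mul_le_mul_left hle hcG
  rw [hφ] at h2
  exact h2

theorem center_bound (hM : IsPModular p M) {B : Set (IrrCharacter G)} (hB : IsPBlock M B) {D : Subgroup G}
    {e : MonoidAlgebra (KK M) G} (hmax : MaxP p M (blk M B) (D, e)) {χ : IrrCharacter G} (hχ : χ ∈ B) {E : ℕ}
    (hE : (D ⊔ Subgroup.centralizer (D : Set G)).relIndex (stb D e) ≤ E) :
    Nat.card (Subgroup.center D) * p ^ blockHeight p B (χ : G → ℂ) ≤ p ^ blockDefect p B * E := by
  classical
  have hD := hmax.1.1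
  have he := hmax.1.2.1
  simp only at hD he
  have h1 : ∀ z : G, ∃ f : MonoidAlgebra (KK M) G, z ∈ D → LEr p M (Subgroup.zpowers z, f) (D, e) := by
    intro z
    by_cases hz : z ∈ D
    · obtain ⟨f, -, hf⟩ := exists_sub hM hD he hz
      exact ⟨f, fun _ => hf⟩
    · exact ⟨0, fun h => absurd h hz⟩
  choose fz hfz using h1
  have h2 := center_amgm hM hB hmax hχ fz hfz
  have h3 := center_count hM hB hmax χ fz hfz hE
  rw [card_center_filter D] at h2
  have hp0 : (0 : ℝ) ≤ (p : ℝ) ^ blockDefect p B := by positivity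
  have h4 := h2.trans (mul_le_mul_of_nonneg_left h3 hp0)
  exact_mod_cast h4

end Cfsg.Agent.H5
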