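import Cfsg.Agent.H5.W41

set_option autoImplicit false
set_option linter.style.haveILetI false
set_option linter.unusedVariables false
set_option linter.unusedSectionVars false
set_option linter.unusedSimpArgs false

/-! Heights in `p`-solvable groups: the induction. -/

namespace Cfsg.Agent.H5

open Cfsg
open scoped ComplexConjugate

universe u v w

variable {p : ℕ} {M : Ideal AlgInt} [hM' : M.IsPrime]

/-- Heights under the Fong-Reynolds correspondence. -/
theorem fr_height {G : Type u} [Group G] [Fintype G] (hM : IsPModular p M) {T : Subgroup G} {B : Set (IrrCharacter G)} (hB : IsPBlock M B)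
    {B' : Set (IrrCharacter T)} (hB' : IsPBlock M B') {D : Subgroup G} (hD : Df p M (⊤ : Subgroup G) (blk M B) D)
    (hD' : Df p M T (be M T B') D) {χ : IrrCharacter G} (hχ : χ ∈ B) {ψ : IrrCharacter T} (hψ : ψ ∈ B')
    (h : (χ : G → ℂ) = indFun T (ψ : T → ℂ)) :
    blockHeight p B (χ : G → ℂ) = blockHeight p B' (ψ : T → ℂ) := by
  haveI := Fintype.ofFinite T
  have h1 := df_card hM hB hD
  have h2 := df_card_sub hM hB' hD'
  have h3 : blockDefect p B = blockDefect p B' := Nat.pow_right_injective hM.1.two_le (h1.symm.trans h2)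
  have h4 := fac_scaled hM.1 hχ
  have h5 := fac_scaled hM.1 hψ
  have hdeg : charDegree (χ : G → ℂ) = T.index * charDegree (ψ : T → ℂ) := by
    have h6 := congrFun h 1
    rw [indFun_one, IsCharacter.one_eq_charDegree (irr_isCharacter χ), IsCharacter.one_eq_charDegree (irr_isCharacter ψ)] at h6
    exact_mod_cast h6
  have hp0 := hM.1.ne_zero
  have hi0 : T.index ≠ 0 := T.index_ne_zero_of_finite
  rw [hdeg, h3, Nat.factorization_mul (pow_ne_zero _ hp0) (mul_ne_zero hi0 (charDegree_pos ψ.2).ne'),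
    Nat.factorization_mul hi0 (charDegree_pos ψ.2).ne'] at h4
  rw [Nat.factorization_mul (pow_ne_zero _ hp0) (charDegree_pos ψ.2).ne'] at h5
  have h7 : (Nat.card T).factorization p + T.index.factorization p = (Nat.card G).factorization p := by
    have := Subgroup.card_mul_index T
    rw [← this, Nat.factorization_mul Nat.card_pos.ne' hi0]; rfl
  simp only [Finsupp.coe_add, Pi.add_apply] at h4 h5
  omega

theorem psolv_height (hM : IsPModular p M) : ∀ n : ℕ, ∀ (G : Type u) [Group G] [Fintype G], Nat.card G = n →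
    IsPSolvable p G → ∀ (B : Set (IrrCharacter G)), IsPBlock M B → ∀ D : Subgroup G, Df p M (⊤ : Subgroup G) (blk M B) D →
    ∀ χ ∈ B, blockHeight p B (χ : G → ℂ) ≤ ((Subgroup.center D).index).factorization p := by
  intro n
  induction n using Nat.strong_induction_on with
  | _ n ih =>
  intro G _ _ hn hsolv B hB D hD χ hχ
  haveI : Fact p.Prime := ⟨hM.1⟩
  obtain ⟨N, hNdef⟩ : ∃ N : Subgroup G, N = pPrimeCore p G := ⟨_, rfl⟩
  haveI hN : N.Normal := by rw [hNdef]; exact normal_pPrimeCore p G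
  haveI : Fintype N := Fintype.ofFinite N
  have hNp : ¬ p ∣ Nat.card N := by
    rw [hNdef]
    exact (Nat.Prime.coprime_iff_not_dvd hM.1).mp (Cfsg.Agent.L0.pPrimeCore_coprime p G).symm
  have hs : IsPSolvable p (G ⧸ N) := Cfsg.Agent.H2.psolvable_surj hsolv (QuotientGroup.mk' N) (QuotientGroup.mk'_surjective N)
  have hcore : pPrimeCore p (G ⧸ N) = ⊥ := by
    subst hNdef
    exact Cfsg.Agent.L0.pPrimeCore_quotient_pPrimeCore p G
  obtain ⟨θ, hθ⟩ := exists_under (N := N) χ
  have hb : IsPBlock M ({θ} : Set (IrrCharacter N)) := by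
    have h1 := isPBlock_blockOf (M := M) θ
    rwa [blockOf_eq_singleton hM hNp θ] at h1
  have hbl := isBl_be (M := M) hb
  obtain ⟨c, hc⟩ : ∃ c, c = be M N ({θ} : Set (IrrCharacter N)) := ⟨_, rfl⟩
  have hcov : be M N ({θ} : Set (IrrCharacter N)) * blk M B ≠ 0 := (cov_iff' hB hb).mp (cov_of hχ rfl hθ)
  obtain ⟨T, hTdef⟩ : ∃ T : Subgroup G, T = stbG (be M N ({θ} : Set (IrrCharacter N))) := ⟨_, rfl⟩
  have hT : ∀ x : G, x ∈ T ↔ kconj x (be M N ({θ} : Set (IrrCharacter N))) = be M N ({θ} : Set (IrrCharacter N)) := by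
    intro x; rw [hTdef]; exact Iff.rfl
  by_cases hTtop : T = ⊤
  · have hst : be M N ({θ} : Set (IrrCharacter N)) ∈ KFix (KK M) (⊤ : Subgroup G) := by
      rw [mem_KFix]
      intro g _
      rw [← hT, hTtop]; trivial
    have htop := fong_block hM hs hcore hbl hst
    have heq : be M N ({θ} : Set (IrrCharacter N)) = blk M B := by
      rcases htop.eq_or (isBl_top hB) with h | h
      · exact h
      · exact absurd h hcov
    have hD' := hD
    rw [← heq] at hD'
    have hidx := sylow_of_df_stable hM hNp hbl hst hD'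
    have hinv : ∀ (g : G) (n : N), (θ : N → ℂ) ⟨g * n * g⁻¹, hN.conj_mem n n.2 g⟩ = (θ : N → ℂ) n := by
      intro g n
      have h1 := (stab_iff hb g).mpr ((mem_KFix.mp hst) g trivial)
      have h2 := h1 θ rfl ⟨_, Cfsg.Agent.H4.conjBy_irr hN g θ.2⟩ (fun n => rfl)
      rw [Set.mem_singleton_iff] at h2
      have h3 := congrArg (fun ζ : IrrCharacter N => (ζ : N → ℂ) n) h2
      exact h3
    have h1 := psolv_stable_deg hNp hs hcore hinv hθ hD.1 hidx
    refine le_trans ?_ h1
    rw [blockHeight_eq]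
    exact Nat.sub_le _ _
  · have hlt : Nat.card T < n := by
      rw [← hn]
      have h1 : Nat.card T ∣ Nat.card G := Subgroup.card_subgroup_dvd_card T
      rcases (Nat.le_of_dvd Nat.card_pos h1).lt_or_eq with h | h
      · exact h
      · exact absurd (Subgroup.eq_top_of_card_eq T h) hTtop
    haveI : Fintype T := Fintype.ofFinite T
    obtain ⟨e, he, hce, hge⟩ := exists_gsum hbl hT (isBl_top hB) hcov
    obtain ⟨B', hB', hB'e⟩ := exists_be he
    obtain ⟨D₁, hD₁⟩ := exists_df hM he
    have hDG := fr_df hM hbl hT he hce hD₁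
    rw [hge] at hDG
    rw [← hB'e] at hce hge hD₁
    have hind : IsInducedBlock M T B' B := (fr_induced hb hT hB' hce hB).mpr hge.symm
    obtain ⟨ψ, hψ, hψχ⟩ := (fr_mem hM hb hT hB' hce hind χ).mp hχ
    have hD₁' : Df p M (⊤ : Subgroup T) (blk M B') (D₁.subgroupOf T) := by
      rw [← isDefectGroup_iff_df hM hB', isDefectGroup_subgroupOf_iff hM hB' hD₁.2.1]
      exact hD₁
    have h1 := ih (Nat.card T) hlt T rfl (Cfsg.Agent.H2.psolvable_subgroup hsolv T) B' hB' _ hD₁' ψ hψ
    rw [fr_height hM hB hB' hDG hD₁ hχ hψ hψχ]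
    refine h1.trans (le_of_eq ?_)
    rw [center_index_equiv (Subgroup.subgroupOfEquivOfLe hD₁.2.1)]
    obtain ⟨x, -, hx⟩ := hDG.conj_eq hD
    subst hx
    rw [center_index_equiv (D₁.equivMapOfInjective (MulAut.conj x).toMonoidHom (MulAut.conj x).injective)]

end Cfsg.Agent.H5
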